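import Mathlib
import Cfsg.Agent.H23.MultDeg

/-!
# Transfer of characters along a homomorphism (inflation and Gallagher at once)
-/

namespace Cfsg.Agent.H23

open Cfsg Subgroup

variable {E W : Type*} [Group E] [Group W] [Finite E] [Finite W]

/-- `X` is the image of `Y` under `f` and `Y` contains the kernel of `f`. -/
structure IsPre (f : E →* W) (Y : Subgroup E) (X : Subgroup W) : Prop where
  mem : ∀ e, e ∈ Y ↔ f e ∈ X
  le : X ≤ f.range

namespace IsPre

variable {f : E →* W} {Y Y' : Subgroup E} {X X' : Subgroup W}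

omit [Finite E] [Finite W]

/-- The restricted homomorphism. -/
def hom (h : IsPre f Y X) : Y →* X := (f.comp Y.subtype).codRestrict X fun y => (h.mem y).1 y.2

theorem coe_hom (h : IsPre f Y X) (y : Y) : (h.hom y : W) = f y := rfl

theorem surj (h : IsPre f Y X) : Function.Surjective h.hom := fun x => by
  obtain ⟨e, he⟩ := h.le x.2
  exact ⟨⟨e, (h.mem e).2 (he ▸ x.2)⟩, Subtype.ext he⟩

theorem ker_le (h : IsPre f Y X) : f.ker ≤ Y := fun e he =>
  (h.mem e).2 (by rw [MonoidHom.mem_ker.1 he]; exact one_mem _)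

theorem ker_hom (h : IsPre f Y X) : h.hom.ker = f.ker.subgroupOf Y :=
  Subgroup.ext fun _ => Subtype.ext_iff

theorem mono (h : IsPre f Y X) (h' : IsPre f Y' X') (hX : X' ≤ X) : Y' ≤ Y := fun e he =>
  (h.mem e).2 (hX ((h'.mem e).1 he))

theorem mono' (h : IsPre f Y X) (h' : IsPre f Y' X') (hY : Y' ≤ Y) : X' ≤ X := fun x hx => by
  obtain ⟨e, rfl⟩ := h'.le hx
  exact (h.mem e).1 (hY ((h'.mem e).2 hx))

theorem mem_normalizer (h : IsPre f Y X) {e : E} (he : e ∈ normalizer (Y : Set E)) :
    f e ∈ normalizer (X : Set W) := mem_normalizer_iff.2 fun x => ⟨fun hx => by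
      obtain ⟨y, rfl⟩ := h.le hx
      rw [← map_inv, ← map_mul, ← map_mul, ← h.mem]
      exact (mem_normalizer_iff.1 he y).1 ((h.mem y).2 hx), fun hx => by
      obtain ⟨y, hy⟩ := h.le hx
      have : x = f (e⁻¹ * y * e) := by rw [map_mul, map_mul, map_inv, hy]; group
      rw [this, ← h.mem]
      exact H4.inv_conj_mem_of_mem_normalizer he ((h.mem y).2 (hy ▸ hx))⟩

theorem mem_normalizer' (h : IsPre f Y X) {e : E} (he : f e ∈ normalizer (X : Set W)) :
    e ∈ normalizer (Y : Set E) := mem_normalizer_iff.2 fun y => by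
  rw [h.mem, h.mem, map_mul, map_mul, map_inv]
  exact mem_normalizer_iff.1 he _

theorem comap (f : E →* W) {X : Subgroup W} (h : X ≤ f.range) : IsPre f (X.comap f) X :=
  ⟨fun _ => Iff.rfl, h⟩

theorem map (f : E →* W) {Y : Subgroup E} (h : f.ker ≤ Y) : IsPre f Y (Y.map f) :=
  ⟨fun e => by rw [← mem_comap, comap_map_eq, sup_eq_left.2 h], map_le_range _ _⟩

end IsPre

/-- A character whose restriction to the kernel of `f` is irreducible. -/
structure GalChar (f : E →* W) where
  /-- the character -/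
  t : E → ℂ
  isChar : IsCharacter E t
  irr : IsIrrCharacter f.ker fun x => t x

/-- The principal character. -/
def GalChar.one (f : E →* W) : GalChar f := ⟨fun _ => 1, H11.isCharacter_one, H11.isIrrCharacter_one⟩

namespace GalChar

variable {f : E →* W} (T : GalChar f) {Y Y' : Subgroup E} {X X' : Subgroup W}

/-- The restriction to the kernel. -/
def ker : IrrCharacter f.ker := ⟨fun x => T.t x, T.irr⟩

omit [Finite W] in
theorem irr' (h : IsPre f Y X) : IsIrrCharacter (f.ker.subgroupOf Y) fun x => T.t (x : Y) :=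
  H24.isIrr_subgroupOf h.ker_le T.irr

omit [Finite W] [Finite E] in
theorem le_ker (h : IsPre f Y X) (β : X → ℂ) :
    f.ker.subgroupOf Y ≤ H11.charKer fun y => β (h.hom y) :=
  h.ker_hom ▸ H11.ker_le_charKer_comp _ _

/-- The transferred character. -/
def gal (h : IsPre f Y X) (β : IrrCharacter X) : IrrCharacter Y :=
  ⟨(fun y : Y => T.t y) * fun y => β.1 (h.hom y),
    H24.gallagher_isIrr (f.ker.subgroupOf Y) (H11.isCharacter_restrict T.isChar Y) (T.irr' h)
      (H11.isIrrCharacter_comp_of_surjective β.2 _ h.surj) (le_ker h _)⟩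

omit [Finite W] in
theorem gal_apply (h : IsPre f Y X) (β : IrrCharacter X) (y : Y) :
    (T.gal h β).1 y = T.t y * β.1 (h.hom y) := rfl

omit [Finite W] in
theorem gal_inj (h : IsPre f Y X) : Function.Injective (T.gal h) := fun β γ e => by
  have := H24.gallagher_inj (f.ker.subgroupOf Y) (H11.isCharacter_restrict T.isChar Y) (T.irr' h)
    (H11.isIrrCharacter_comp_of_surjective β.2 _ h.surj)
    (H11.isIrrCharacter_comp_of_surjective γ.2 _ h.surj) (le_ker h _) (le_ker h _)
    (congrArg Subtype.val e)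
  refine Subtype.ext (funext fun x => ?_)
  obtain ⟨y, rfl⟩ := h.surj x
  exact congrFun this y

omit [Finite W] in
theorem gal_surj (h : IsPre f Y X) {μ : IrrCharacter Y} (h0 : mult h.ker_le μ T.ker ≠ 0) :
    ∃ β, T.gal h β = μ := by
  haveI := Fintype.ofFinite f.ker
  haveI := Fintype.ofFinite (f.ker.subgroupOf Y)
  obtain ⟨β, h1, h2, h3⟩ := H24.gallagher_exists (f.ker.subgroupOf Y)
    (H11.isCharacter_restrict T.isChar Y) (T.irr' h) μ.2
    ((H24.inner_subgroupOf h.ker_le μ.1 T.ker.1).trans_ne ((mult_ne_zero_iff _).1 h0))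
  obtain ⟨γ, h4, h5⟩ := H11.exists_irr_lift_of_surjective h1 h.hom h.surj (h.ker_hom ▸ h2)
  exact ⟨⟨γ, h4⟩, Subtype.ext (by rw [h3]; exact funext fun y => congrArg (T.t y * ·) (h5 y))⟩

omit [Finite W] in
theorem mult_gal_ker (h : IsPre f Y X) (β : IrrCharacter X) :
    mult h.ker_le (T.gal h β) T.ker = charDegree β.1 := by
  haveI := Fintype.ofFinite f.ker
  refine mult_eq_of_inner _ ?_
  have : (fun c : f.ker => (T.gal h β).1 ⟨c, h.ker_le c.2⟩) = (charDegree β.1 : ℂ) • T.ker.1 := by
    funext c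
    rw [gal_apply, show h.hom ⟨c, _⟩ = 1 from Subtype.ext c.2, H24.irr_deg β.2, mul_comm]
    rfl
  rw [this, H11.classInner_smul_left, H11.classInner_irr_self T.ker.2, mul_one]

theorem mult_gal (h : IsPre f Y X) (h' : IsPre f Y' X') (hX : X' ≤ X) (hY : Y' ≤ Y)
    (β : IrrCharacter X) (γ : IrrCharacter X') :
    mult hY (T.gal h β) (T.gal h' γ) = mult hX β γ := by
  classical
  haveI := Fintype.ofFinite Y'
  haveI := Fintype.ofFinite (IrrCharacter X')
  refine mult_eq_of_inner _ ?_
  have : (fun c : Y' => (T.gal h β).1 ⟨c, hY c.2⟩) =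
      ∑ δ : IrrCharacter X', (mult hX β δ : ℂ) • (T.gal h' δ).1 := by
    funext c
    rw [gal_apply, Finset.sum_apply]
    refine (congrArg _ (res_apply_eq_sum hX β (h'.hom c))).trans ?_
    rw [Finset.mul_sum]
    exact Finset.sum_congr rfl fun δ _ => by rw [Pi.smul_apply, gal_apply, smul_eq_mul]; ring
  rw [this, H11.classInner_sum_left, Finset.sum_eq_single γ (fun δ _ hδ => by
    rw [H11.classInner_smul_left, H11.classInner_irr_of_ne (T.gal h' δ).2 (T.gal h' γ).2
      fun e => hδ (T.gal_inj h' (Subtype.ext e)), mul_zero]) (by simp),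
    H11.classInner_smul_left, H11.classInner_irr_self (T.gal h' γ).2, mul_one]

omit [Finite W] in
theorem cj_gal (h : IsPre f Y X) {e : E} (he : e ∈ normalizer (Y : Set E)) (β : IrrCharacter X) :
    cj Y ⟨e, he⟩ (T.gal h β) = T.gal h (cj X ⟨f e, h.mem_normalizer he⟩ β) := by
  refine Subtype.ext (funext fun y => ?_)
  rw [cj_apply, gal_apply, gal_apply, cj_apply]
  congr 1
  · exact H11.isClassFunction_of_isCharacter T.isChar _ _
  · refine congrArg β.1 (Subtype.ext ?_)
    simp [coe_cjAut, IsPre.coe_hom]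

omit [Finite W] in
theorem invEl_gal (h : IsPre f Y X) {e : E} (he : e ∈ normalizer (Y : Set E))
    (β : IrrCharacter X) : InvEl Y e (T.gal h β).1 ↔ InvEl X (f e) β.1 := by
  rw [← cj_eq_self_iff ⟨e, he⟩, cj_gal, (T.gal_inj h).eq_iff, cj_eq_self_iff]

end GalChar

end Cfsg.Agent.H23
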