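import Mathlib
import Cfsg.Agent.H23.OWBasic

/-!
# An involution inverting a fixed point free abelian section over a central subgroup
-/

namespace Cfsg.Agent.H23

open Cfsg Subgroup
open scoped commutatorElement

variable {A : Type*} [Group A] [Finite A]

theorem coprime_mod_aux {N K S : Subgroup A} [N.Normal] (hSK : S ≤ normalizer (K : Set A))
    (hab : ∀ a ∈ K, ∀ b ∈ K, ⁅a, b⁆ ∈ N) {m n : ℕ} (hm : ∀ s ∈ S, s ^ m ∈ N)
    (hn : ∀ k ∈ K, k ^ n ∈ N) (hcop : m.Coprime n) :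
    S.map (QuotientGroup.mk' N) ≤ normalizer (K.map (QuotientGroup.mk' N) : Set (A ⧸ N)) ∧
      IsMulCommutative (K.map (QuotientGroup.mk' N)) ∧
      (Nat.card (S.map (QuotientGroup.mk' N))).Coprime (Nat.card (K.map (QuotientGroup.mk' N))) := by
  refine ⟨(map_mono hSK).trans (le_normalizer_map _), ⟨⟨?_⟩⟩, coprime_card_card_of_pow ?_ ?_ hcop⟩
  · rintro ⟨_, a, ha, rfl⟩ ⟨_, b, hb, rfl⟩
    refine Subtype.ext (commutatorElement_eq_one_iff_mul_comm.1 ?_)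
    rw [← map_commutatorElement]
    exact (QuotientGroup.eq_one_iff _).2 (hab a ha b hb)
  · rintro ⟨_, a, ha, rfl⟩
    exact Subtype.ext ((QuotientGroup.eq_one_iff _).2 (hm a ha))
  · rintro ⟨_, a, ha, rfl⟩
    exact Subtype.ext ((QuotientGroup.eq_one_iff _).2 (hn a ha))

omit [Finite A] in
theorem mk_mem_centralizer_iff {N S : Subgroup A} [N.Normal] {k : A} :
    QuotientGroup.mk' N k ∈ centralizer (S.map (QuotientGroup.mk' N) : Set (A ⧸ N)) ↔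
      ∀ s ∈ S, ⁅s, k⁆ ∈ N := by
  refine ⟨fun h s hs => (QuotientGroup.eq_one_iff _).1 ?_, ?_⟩
  · rw [← QuotientGroup.mk'_apply, map_commutatorElement, commutatorElement_eq_one_iff_mul_comm]
    exact h _ ⟨s, hs, rfl⟩
  · rintro h _ ⟨s, hs, rfl⟩
    rw [← commutatorElement_eq_one_iff_mul_comm, ← map_commutatorElement]
    exact (QuotientGroup.eq_one_iff _).2 (h s hs)

theorem commutator_le_mod {N K S : Subgroup A} [N.Normal] (hSK : S ≤ normalizer (K : Set A))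
    (hab : ∀ a ∈ K, ∀ b ∈ K, ⁅a, b⁆ ∈ N) {m n : ℕ} (hm : ∀ s ∈ S, s ^ m ∈ N)
    (hn : ∀ k ∈ K, k ^ n ∈ N) (hcop : m.Coprime n) : ⁅K, S⁆ ≤ ⁅⁅K, S⁆, S⁆ ⊔ N := by
  obtain ⟨h1, h2, h3⟩ := coprime_mod_aux hSK hab hm hn hcop
  have := H4.commutator_commutator_eq h1 h3 (Or.inr (H4.isSolvable_of_isMulCommutative _))
  simp only [← map_commutator] at this
  have h4 := map_le_map_iff.1 this.ge
  rwa [QuotientGroup.ker_mk'] at h4

theorem mem_of_fixed_mod {N K S : Subgroup A} [N.Normal] (hSK : S ≤ normalizer (K : Set A))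
    (hab : ∀ a ∈ K, ∀ b ∈ K, ⁅a, b⁆ ∈ N) {m n : ℕ} (hm : ∀ s ∈ S, s ^ m ∈ N)
    (hn : ∀ k ∈ K, k ^ n ∈ N) (hcop : m.Coprime n) {k : A} (hk : k ∈ ⁅K, S⁆ ⊔ N)
    (h : ∀ s ∈ S, ⁅s, k⁆ ∈ N) : k ∈ N := by
  obtain ⟨h1, h2, h3⟩ := coprime_mod_aux hSK hab hm hn hcop
  refine (QuotientGroup.eq_one_iff _).1 (mem_bot.1 ((H4.centralizer_inf_commutator_eq_bot h1 h3).le
    ⟨mk_mem_centralizer_iff.2 h, ?_⟩))
  rw [← map_commutator]
  change k ∈ (⁅K, S⁆.map (QuotientGroup.mk' N)).comap (QuotientGroup.mk' N)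
  rwa [comap_map_eq, QuotientGroup.ker_mk']

theorem exists_commutator_mul_mod {N K S : Subgroup A} [N.Normal]
    (hSK : S ≤ normalizer (K : Set A))
    (hab : ∀ a ∈ K, ∀ b ∈ K, ⁅a, b⁆ ∈ N) {m n : ℕ} (hm : ∀ s ∈ S, s ^ m ∈ N)
    (hn : ∀ k ∈ K, k ^ n ∈ N) (hcop : m.Coprime n) {k : A} (hk : k ∈ K) :
    ∃ a ∈ ⁅K, S⁆, ∃ c ∈ K, (∀ s ∈ S, ⁅s, c⁆ ∈ N) ∧ k = a * c := by
  obtain ⟨h1, h2, h3⟩ := coprime_mod_aux hSK hab hm hn hcop
  obtain ⟨x, hx, c, hc, e⟩ := H4.exists_commutator_mul_centralizer h1 h3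
    (Or.inr (H4.isSolvable_of_isMulCommutative _)) (mem_map_of_mem (QuotientGroup.mk' N) hk)
  rw [← map_commutator] at hx
  obtain ⟨a, ha, rfl⟩ := hx
  refine ⟨a, ha, a⁻¹ * k, mul_mem (inv_mem (H4.commutator_le_left_of_le_normalizer hSK ha)) hk,
    mk_mem_centralizer_iff.1 ?_, by group⟩
  rw [map_mul, map_inv, ← e, inv_mul_cancel_left]
  exact hc.2

/-- The subgroup of pairs whose product lies in `Z`. -/
def invPairs {Z K : Subgroup A} (hZ : Z ≤ center A) (hab : ∀ a ∈ K, ∀ b ∈ K, ⁅a, b⁆ ∈ Z) :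
    Subgroup (A × A) where
  carrier := {x | x.1 ∈ K ∧ x.2 ∈ K ∧ x.1 * x.2 ∈ Z}
  one_mem' := ⟨one_mem _, one_mem _, by simp⟩
  mul_mem' := by
    rintro ⟨a, b⟩ ⟨c, d⟩ ⟨ha, hb, h⟩ ⟨hc, hd, h'⟩
    refine ⟨mul_mem ha hc, mul_mem hb hd, ?_⟩
    have h1 := mem_center_iff.1 (hZ h')
    have h2 := mem_center_iff.1 (hZ (hab b⁻¹ (inv_mem hb) d⁻¹ (inv_mem hd)))
    have : a * c * (b * d) = a * b * (c * d) * ⁅b⁻¹, d⁻¹⁆ := by
      calc a * c * (b * d) = a * (c * d) * b * ⁅b⁻¹, d⁻¹⁆ := by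
            rw [commutatorElement_def]; group
        _ = _ := by rw [mul_assoc a, ← h1 b]; group
    change a * c * (b * d) ∈ Z
    rw [this]
    exact mul_mem (mul_mem h h') (hab _ (inv_mem hb) _ (inv_mem hd))
  inv_mem' := by
    rintro ⟨a, b⟩ ⟨ha, hb, h⟩
    refine ⟨inv_mem ha, inv_mem hb, ?_⟩
    have h1 := mem_center_iff.1 (hZ h) b
    change a⁻¹ * b⁻¹ ∈ Z
    rw [← mul_inv_rev, show b * a = a * b from mul_right_cancel (b := b) (by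
      rw [mul_assoc, h1])]
    exact inv_mem h

omit [Finite A] in
theorem commutatorElement_eq_of_central {a b a' b' : A} (h : a * a' ∈ center A)
    (h' : b * b' ∈ center A) (hc : ⁅a, b⁆ ∈ center A) : ⁅a', b'⁆ = ⁅a, b⁆ := by
  have e1 : a' = a⁻¹ * (a * a') := by group
  have e2 : b' = b⁻¹ * (b * b') := by group
  have h1 := mem_center_iff.1 h
  have h2 := mem_center_iff.1 h'
  have h3 := mem_center_iff.1 hc (b * a)
  rw [e1, e2]
  generalize a * a' = z at h1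
  generalize b * b' = w at h2
  rw [commutatorElement_def, mul_inv_rev, mul_inv_rev, inv_inv, inv_inv]
  calc a⁻¹ * z * (b⁻¹ * w) * (z⁻¹ * a) * (w⁻¹ * b)
      = a⁻¹ * (z * (b⁻¹ * w)) * z⁻¹ * a * w⁻¹ * b := by group
    _ = a⁻¹ * b⁻¹ * (w * a) * w⁻¹ * b := by rw [← h1]; group
    _ = (b * a)⁻¹ * (⁅a, b⁆ * (b * a)) := by rw [← h2, commutatorElement_def]; group
    _ = ⁅a, b⁆ := by rw [← h3]; group

theorem exists_inverting_aut {Z K S B : Subgroup A} [hK : K.Normal] (hZ : Z ≤ center A)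
    (hZK : Z ≤ K) (hab : ∀ a ∈ K, ∀ b ∈ K, ⁅a, b⁆ ∈ Z)
    (hBS : B ≤ normalizer (S : Set A)) (hKB : ∀ a : A, ∃ k ∈ K, ∃ b ∈ B, a = k * b)
    (hgen : K ≤ ⁅K, S⁆ ⊔ Z) (hinf : K ⊓ B ≤ Z) {m n : ℕ} (hm : ∀ s ∈ S, s ^ m ∈ Z)
    (hn : ∀ k ∈ K, k ^ n = 1) (hcop : m.Coprime n) :
    ∃ τ : MulAut A, (∀ a, τ (τ a) = a) ∧ (∀ b ∈ B, τ b = b) ∧ ∀ k ∈ K, τ k * k ∈ Z := by
  let Δ : A →* A × A := (MonoidHom.id A).prod (MonoidHom.id A)
  let D := invPairs hZ hab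
  have hZc : Z.map Δ ≤ center (A × A) := by
    rintro _ ⟨z, hz, rfl⟩
    exact mem_center_iff.2 fun g => Prod.ext (mem_center_iff.1 (hZ hz) _)
      (mem_center_iff.1 (hZ hz) _)
  haveI hZn : Z.Normal := ⟨fun z hz g => by rwa [mem_center_iff.1 (hZ hz) g, mul_inv_cancel_right]⟩
  haveI : (Z.map Δ).Normal :=
    ⟨fun z hz g => by rwa [mem_center_iff.1 (hZc hz) g, mul_inv_cancel_right]⟩
  have hΔD : ∀ a, Δ a ∈ normalizer (D : Set (A × A)) := fun a =>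
    mem_normalizer_of_conj_mem fun g hg => ⟨hK.conj_mem _ hg.1 a, hK.conj_mem _ hg.2.1 a, by
      have := hZn.conj_mem _ hg.2.2 a
      convert this using 1
      change a * g.1 * a⁻¹ * (a * g.2 * a⁻¹) = _
      group⟩
  have hSD : S.map Δ ≤ normalizer (D : Set (A × A)) := by
    rintro _ ⟨s, -, rfl⟩; exact hΔD s
  let D₀ := ⁅D, S.map Δ⁆ ⊔ Z.map Δ
  have hD₀ : D₀ ≤ D := sup_le (H4.commutator_le_left_of_le_normalizer hSD) (by
    rintro _ ⟨z, hz, rfl⟩; exact ⟨hZK hz, hZK hz, mul_mem hz hz⟩)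
  have hBD₀ : B.map Δ ≤ normalizer (D₀ : Set (A × A)) :=
    H4.le_normalizer_sup (H4.le_normalizer_commutator (by rintro _ ⟨s, -, rfl⟩; exact hΔD s)
      ((map_mono hBS).trans (le_normalizer_map _))) le_normalizer'
  let F := D₀ ⊔ B.map Δ
  have hinj : ∀ x ∈ F, x.1 = 1 → x.2 = 1 := fun x hx h1 => by
    obtain ⟨d, hd, _, ⟨b, hb, rfl⟩, rfl⟩ := (H4.mem_sup_iff_of_le_normalizer hBD₀).1 hx
    have h2 : d.1 = b⁻¹ := eq_inv_of_mul_eq_one_left h1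
    have h3 : d.1 ∈ Z := hinf (mem_inf.2 ⟨(hD₀ hd).1, by rw [h2]; exact B.inv_mem hb⟩)
    have h4 : d.2 ∈ Z := (mul_mem_cancel_left h3).1 (hD₀ hd).2.2
    obtain ⟨z, -, rfl⟩ := mem_of_fixed_mod (N := Z.map Δ) (m := m) (n := n) hSD
      (fun a ha b hb => ⟨⁅a.1, b.1⁆, hab _ ha.1 _ hb.1, Prod.ext rfl
        (commutatorElement_eq_of_central (hZ ha.2.2) (hZ hb.2.2) (hZ (hab _ ha.1 _ hb.1))).symm⟩)
      (by rintro _ ⟨s, hs, rfl⟩; exact ⟨_, hm s hs, map_pow _ _ _⟩)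
      (fun k hk => by
        rw [show k ^ n = 1 from Prod.ext (hn _ hk.1) (hn _ hk.2.1)]; exact one_mem _)
      hcop hd fun s _ => by
        rw [commutatorElement_eq_one_iff_mul_comm.2 (Prod.ext (mem_center_iff.1 (hZ h3) _)
          (mem_center_iff.1 (hZ h4) _))]
        exact one_mem _
    exact h1
  have hK₀ : K ≤ D₀.map (MonoidHom.fst A A) := hgen.trans (sup_le (commutator_le.2 fun k hk s hs =>
      ⟨⁅(k, k⁻¹), Δ s⁆, mem_sup_left (commutator_mem_commutator ⟨hk, inv_mem hk, by simp⟩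
        ⟨s, hs, rfl⟩), rfl⟩) fun z hz => ⟨Δ z, mem_sup_right ⟨z, hz, rfl⟩, rfl⟩)
  have hswap : ∀ x ∈ F, x.swap ∈ F := by
    have h1 : ∀ X : Subgroup A, (X.map Δ).map (MulEquiv.prodComm (M := A) (N := A)).toMonoidHom =
        X.map Δ := fun X => by rw [map_map]; rfl
    have h2 : D.map (MulEquiv.prodComm (M := A) (N := A)).toMonoidHom ≤ D := by
      rintro _ ⟨x, hx, rfl⟩
      refine ⟨hx.2.1, hx.1, ?_⟩
      have := hZn.conj_mem _ hx.2.2 x.2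
      rwa [← mul_assoc, mul_inv_cancel_right] at this
    have : F.map (MulEquiv.prodComm (M := A) (N := A)).toMonoidHom ≤ F := by
      rw [Subgroup.map_sup, Subgroup.map_sup, map_commutator, h1, h1, h1]
      exact sup_le_sup_right (sup_le_sup_right (commutator_mono h2 le_rfl) _) _
    exact fun x hx => this ⟨x, hx, rfl⟩
  have huniq : ∀ a b c, (a, b) ∈ F → (a, c) ∈ F → b = c := fun a b c h h' =>
    mul_inv_eq_one.1 (hinj _ (mul_mem h (inv_mem h')) (mul_inv_cancel a))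
  have hex : ∀ a, ∃ b, (a, b) ∈ F := fun a => by
    obtain ⟨k, hk, b, hb, rfl⟩ := hKB a
    obtain ⟨d, hd, rfl⟩ := hK₀ hk
    exact ⟨d.2 * b, F.mul_mem (x := d) (y := Δ b) (mem_sup_left hd) (mem_sup_right ⟨b, hb, rfl⟩)⟩
  choose t ht using hex
  have htt : ∀ a, t (t a) = a := fun a => huniq _ _ _ (ht _) (hswap _ (ht a))
  refine ⟨⟨⟨t, t, htt, htt⟩, fun a b => huniq _ _ _ (ht _) (mul_mem (ht a) (ht b))⟩, htt,
    fun b hb => huniq _ _ _ (ht _) (mem_sup_right ⟨b, hb, rfl⟩), fun k hk => ?_⟩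
  obtain ⟨d, hd, rfl⟩ := hK₀ hk
  change t d.1 * d.1 ∈ Z
  rw [huniq _ _ _ (ht d.1) (mem_sup_left hd)]
  have := hZn.conj_mem _ (hD₀ hd).2.2 d.2
  rwa [← mul_assoc, mul_inv_cancel_right] at this

theorem eq_of_inv_over_of_comm {M N S : Subgroup A} (h : N ≤ M)
    (hn : M ≤ normalizer (N : Set A)) (hab : ∀ a ∈ M, ∀ b ∈ M, a * b * a⁻¹ * b⁻¹ ∈ N)
    (hSM : S ≤ normalizer (M : Set A)) (hSN : S ≤ normalizer (N : Set A)) {m : ℕ}
    (hm : ∀ s ∈ S, s ^ m ∈ N) (hcop : m.Coprime (N.relIndex M)) (hgen : M ≤ ⁅M, S⁆ ⊔ N)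
    {θ : IrrCharacter N} {ψ ψ' : IrrCharacter M} (h1 : mult h ψ θ ≠ 0) (h2 : mult h ψ' θ ≠ 0)
    (a : InvBy M S ψ.1) (b : InvBy M S ψ'.1) : ψ = ψ' := by
  set K := (linTriv {x : M | (x : A) ∈ N}).map (linHom M) with hK
  have a0 : ∀ (s : S) (lam : M →* ℂˣ), cjHom hSM s * linHom M lam * (cjHom hSM s)⁻¹ =
      linHom M (lam.comp (cjAut M ⟨s, hSM s.2⟩⁻¹).toMonoidHom) := fun s lam => by
    ext1 φ
    rw [← map_inv]
    simp only [Equiv.Perm.mul_apply, cjHom_apply, linHom_apply]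
    apply Subtype.ext; funext x
    rw [cj_apply, mulLin_apply, mulLin_apply, cj_apply]
    congr 1
    refine congrArg φ.1 (Subtype.ext ?_)
    simp [coe_cjAut, mul_assoc]
  have a1 : (cjHom hSM).range ≤ normalizer (K : Set (Equiv.Perm (IrrCharacter M))) := by
    refine le_normalizer_of_conj_mem ?_
    rintro _ ⟨s, rfl⟩ _ ⟨lam, hl, rfl⟩
    refine ⟨_, fun x hx => ?_, (a0 s lam).symm⟩
    exact hl _ (H4.conj_mem_of_mem_normalizer (inv_mem (hSN s.2)) hx)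
  have a3 : ∀ k : K, k ^ N.relIndex M = 1 := by
    rintro ⟨_, lam, hl, rfl⟩
    apply Subtype.ext
    change linHom M lam ^ _ = 1
    rw [← map_pow]
    have : lam ^ N.relIndex M = 1 := by
      ext x
      rw [MonoidHom.pow_apply, ← map_pow, hl _ (pow_relIndex_mem' hn x.2)]; rfl
    rw [this, map_one]
  have a4 : Group.IsSolvable K := Group.isSolvable_of_comm (by
    rintro ⟨_, a, -, rfl⟩ ⟨_, b, -, rfl⟩
    apply Subtype.ext
    change linHom M a * linHom M b = linHom M b * linHom M a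
    rw [← map_mul, ← map_mul]
    exact congrArg _ (MonoidHom.ext fun x => mul_comm _ _))
  obtain ⟨lam, h3, h4⟩ := exists_linear_of_over h hn hab h1 h2
  have h5 : linHom M lam • ψ = ψ' := (Subtype.ext h4).symm
  obtain ⟨_, ⟨⟨mu, hmu, rfl⟩, hc⟩, e⟩ := H4.exists_centralizer_smul_eq a1
    (coprime_card_card_of_pow (cjHom_pow_eq_one hSM fun x hx => h (hm x hx)) a3 hcop)
    (Or.inr a4) (x := ψ) (k := linHom M lam) ⟨lam, h3, rfl⟩
    (by rintro _ ⟨s, rfl⟩; exact (invBy_iff_cj hSM _).1 a s)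
    (by rintro _ ⟨s, rfl⟩; rw [h5]; exact (invBy_iff_cj hSM _).1 b s)
  have h6 : M ≤ mu.ker.map M.subtype := hgen.trans (sup_le (commutator_le.2 fun x hx s hs => by
      have h7 := a0 ⟨s⁻¹, inv_mem hs⟩ mu
      rw [hc _ ⟨_, rfl⟩, mul_inv_cancel_right] at h7
      have h8 := congrFun (congrArg Subtype.val (congrArg (· ⟨_, H11.isIrrCharacter_one⟩) h7))
        ⟨x, hx⟩
      simp only [linHom_apply, mulLin_apply, one_mul, Units.val_inj] at h8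
      refine ⟨⟨x, hx⟩ * (cjAut M ⟨s⁻¹, hSM (inv_mem hs)⟩⁻¹ ⟨x, hx⟩)⁻¹, ?_, ?_⟩
      · change mu _ = 1
        rw [map_mul, map_inv, mul_inv_eq_one]
        exact h8
      · simp [coe_cjAut, commutatorElement_def, mul_assoc])
    fun x hx => ⟨⟨x, h hx⟩, hmu _ hx, rfl⟩)
  have h9 : mu = 1 := MonoidHom.ext fun x => by
    obtain ⟨y, hy, e⟩ := h6 x.2
    rwa [← show y = x from Subtype.ext e]
  rw [h9, map_one, one_smul, h5] at e
  exact e

theorem invBy_of_invBy_of_comm {Z K G S T : Subgroup A} (hZK : Z ≤ K) (hKG : K ≤ G)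
    (hKZ : K ≤ normalizer (Z : Set A)) (hGK : G ≤ normalizer (K : Set A))
    (hab : ∀ a ∈ K, ∀ b ∈ K, a * b * a⁻¹ * b⁻¹ ∈ Z) (hSK : S ≤ normalizer (K : Set A))
    (hTK : T ≤ normalizer (K : Set A)) (hSZ : S ≤ normalizer (Z : Set A))
    (hTZ : T ≤ centralizer (Z : Set A)) (hST : T ≤ centralizer (S : Set A))
    (hS : ∀ s ∈ S, ∀ g ∈ G, s * g * s⁻¹ * g⁻¹ ∈ K) (hT : ∀ s ∈ T, ∀ g ∈ G, s * g * s⁻¹ * g⁻¹ ∈ K)
    {m m' : ℕ} (hm : ∀ s ∈ S, s ^ m ∈ Z) (hm' : ∀ s ∈ T, s ^ m' ∈ Z)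
    (hcop : m.Coprime (Nat.card G)) (hcop' : m'.Coprime (Nat.card G)) (hgen : K ≤ ⁅K, S⁆ ⊔ Z)
    {β : IrrCharacter G} (h : InvBy G S β.1) : InvBy G T β.1 := by
  obtain ⟨θ, a⟩ := exists_under hKG β
  obtain ⟨lam, b⟩ := exists_under hZK θ
  have h1 : InvBy K S θ.1 := fun s hs => invEl_under_of_trivial hKG hGK (hSK hs) (hS s hs)
    (hZK (hm s hs)) (hcop.coprime_dvd_right (relIndex_dvd_card _ _)) a (h s hs)
  refine fun t ht => invEl_over_of_trivial hKG hGK (hTK ht) (hT t ht) (hZK (hm' t ht))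
    (hcop'.coprime_dvd_right (relIndex_dvd_card _ _)) a ((cj_eq_self_iff ⟨t, hTK ht⟩ θ).1 ?_)
  refine eq_of_inv_over_of_comm hZK hKZ hab hSK hSZ hm
    (hcop.coprime_dvd_right ((relIndex_dvd_card _ _).trans (card_dvd_of_le hKG))) hgen ?_ b
    (invBy_cj _ (centralizer_le_normalizer _ (hST ht)) hSK h1) h1
  rwa [mult_cj_left hZK _ (centralizer_le_normalizer _ (hTZ ht)) _ (invEl_of_centralizes _
    fun z hz => by rw [← hTZ ht z hz, mul_inv_cancel_right])]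

end Cfsg.Agent.H23
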