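import Mathlib
import Cfsg.Agent.H23.InvAut
import Cfsg.Agent.H23.Gal
import Cfsg.Agent.H23.McKay
import Cfsg.Agent.H22.Triple

/-!
# The odd multiplicity correspondence for groups of odd order (Isaacs)
-/

namespace Cfsg.Agent.H23

open Cfsg Subgroup
open scoped commutatorElement

universe u

section CorrOn

variable {Γ Γ' : Type*} [Group Γ] [Finite Γ] [Group Γ'] [Finite Γ'] {p : ℕ}

/-- Multiplicity prime to `p` defines a bijection between two sets of characters. -/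
structure CorrOn (p : ℕ) {C G : Subgroup Γ} (h : C ≤ G) (X : IrrCharacter G → Prop)
    (Y : IrrCharacter C → Prop) : Prop where
  exR : ∀ χ, X χ → ∃ ξ, Y ξ ∧ ¬ p ∣ mult h χ ξ
  exL : ∀ ξ, Y ξ → ∃ χ, X χ ∧ ¬ p ∣ mult h χ ξ
  uniqR : ∀ χ ξ ξ', X χ → Y ξ → Y ξ' → ¬ p ∣ mult h χ ξ → ¬ p ∣ mult h χ ξ' → ξ = ξ'
  uniqL : ∀ χ χ' ξ, X χ → X χ' → Y ξ → ¬ p ∣ mult h χ ξ → ¬ p ∣ mult h χ' ξ → χ = χ'

variable {C G : Subgroup Γ} {h : C ≤ G} {X X₁ : IrrCharacter G → Prop}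
  {Y Y₁ : IrrCharacter C → Prop} {C' G' : Subgroup Γ'} {h' : C' ≤ G'}
  {X' : IrrCharacter G' → Prop} {Y' : IrrCharacter C' → Prop}

theorem IsCorr.corrOn {P : Subgroup Γ} (H : IsCorr p P h) :
    CorrOn p h (fun χ => InvBy G P χ.1) fun ξ => InvBy C P ξ.1 :=
  ⟨H.exR, H.exL, H.uniqR, H.uniqL⟩

theorem CorrOn.restrict (H : CorrOn p h X Y) (hX : ∀ χ, X₁ χ → X χ) (hY : ∀ ξ, Y₁ ξ → Y ξ)
    (e : ∀ χ ξ, X χ → Y ξ → mult h χ ξ ≠ 0 → (X₁ χ ↔ Y₁ ξ)) : CorrOn p h X₁ Y₁ where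
  exR χ a := (H.exR χ (hX _ a)).imp fun _ b =>
    ⟨(e _ _ (hX _ a) b.1 (ne_zero_of_not_dvd b.2)).1 a, b.2⟩
  exL ξ a := (H.exL ξ (hY _ a)).imp fun _ b =>
    ⟨(e _ _ b.1 (hY _ a) (ne_zero_of_not_dvd b.2)).2 a, b.2⟩
  uniqR _ _ _ a b c := H.uniqR _ _ _ (hX _ a) (hY _ b) (hY _ c)
  uniqL _ _ _ a b c := H.uniqL _ _ _ (hX _ a) (hX _ b) (hY _ c)

theorem CorrOn.congr (H : CorrOn p h X Y) (hX : ∀ χ, X₁ χ ↔ X χ) (hY : ∀ ξ, Y₁ ξ ↔ Y ξ) :
    CorrOn p h X₁ Y₁ :=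
  H.restrict (fun _ => (hX _).1) (fun _ => (hY _).1) fun _ _ a b _ =>
    iff_of_true ((hX _).2 a) ((hY _).2 b)

theorem corrOn_iff (a : IrrCharacter G' → IrrCharacter G) (b : IrrCharacter C' → IrrCharacter C)
    (ha : Function.Injective a) (hb : Function.Injective b)
    (hm : ∀ β γ, mult h (a β) (b γ) = mult h' β γ) (hX : ∀ χ, X χ → ∃ β, a β = χ)
    (hY : ∀ ξ, Y ξ → ∃ γ, b γ = ξ) (eX : ∀ β, X (a β) ↔ X' β) (eY : ∀ γ, Y (b γ) ↔ Y' γ) :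
    CorrOn p h X Y ↔ CorrOn p h' X' Y' := by
  refine ⟨fun H => ⟨fun β x => ?_, fun γ y => ?_, fun β γ γ' x y y' e e' => hb ?_,
    fun β β' γ x x' y e e' => ha ?_⟩, fun H => ⟨fun χ x => ?_, fun ξ y => ?_,
      fun χ ξ ξ' x y y' e e' => ?_, fun χ χ' ξ x x' y e e' => ?_⟩⟩
  · obtain ⟨ξ, y, e⟩ := H.exR _ ((eX β).2 x)
    obtain ⟨γ, rfl⟩ := hY ξ y
    exact ⟨γ, (eY γ).1 y, hm β γ ▸ e⟩
  · obtain ⟨χ, x, e⟩ := H.exL _ ((eY γ).2 y)
    obtain ⟨β, rfl⟩ := hX χ x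
    exact ⟨β, (eX β).1 x, hm β γ ▸ e⟩
  · exact H.uniqR _ _ _ ((eX β).2 x) ((eY _).2 y) ((eY _).2 y') (hm β γ ▸ e) (hm β γ' ▸ e')
  · exact H.uniqL _ _ _ ((eX β).2 x) ((eX _).2 x') ((eY _).2 y) (hm β γ ▸ e) (hm β' γ ▸ e')
  · obtain ⟨β, rfl⟩ := hX χ x
    obtain ⟨γ, y, e⟩ := H.exR _ ((eX β).1 x)
    exact ⟨b γ, (eY γ).2 y, hm β γ ▸ e⟩
  · obtain ⟨γ, rfl⟩ := hY ξ y
    obtain ⟨β, x, e⟩ := H.exL _ ((eY γ).1 y)
    exact ⟨a β, (eX β).2 x, hm β γ ▸ e⟩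
  · obtain ⟨β, rfl⟩ := hX χ x
    obtain ⟨γ, rfl⟩ := hY ξ y
    obtain ⟨γ', rfl⟩ := hY ξ' y'
    rw [H.uniqR _ _ _ ((eX β).1 x) ((eY _).1 y) ((eY _).1 y') (hm β γ ▸ e) (hm β γ' ▸ e')]
  · obtain ⟨β, rfl⟩ := hX χ x
    obtain ⟨β', rfl⟩ := hX χ' x'
    obtain ⟨γ, rfl⟩ := hY ξ y
    rw [H.uniqL _ _ _ ((eX β).1 x) ((eX _).1 x') ((eY _).1 y) (hm β γ ▸ e) (hm β' γ ▸ e')]

theorem GalChar.one_surj {f : Γ →* Γ'} (hp : IsPre f G G') {μ : IrrCharacter G}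
    (h0 : ∀ x : G, f x = 1 → μ.1 x = μ.1 1) : ∃ β, (GalChar.one f).gal hp β = μ := by
  obtain ⟨γ, h4, h5⟩ := H11.exists_irr_lift_of_surjective μ.2 hp.hom hp.surj
    ((H11.le_charKer_iff (H11.irr_isCharacter μ)).2 fun x hx => h0 x (congrArg Subtype.val hx))
  exact ⟨⟨γ, h4⟩, Subtype.ext (funext fun y => (one_mul _).trans (h5 y))⟩

theorem GalChar.invBy_gal {f : Γ →* Γ'} (T : GalChar f) (hp : IsPre f G G') {S : Subgroup Γ}
    (hS : S ≤ normalizer (G : Set Γ)) (β : IrrCharacter G') :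
    InvBy G S (T.gal hp β).1 ↔ InvBy G' (S.map f) β.1 :=
  ⟨by rintro H _ ⟨s, hs, rfl⟩; exact (T.invEl_gal hp (hS hs) β).1 (H s hs),
    fun H s hs => (T.invEl_gal hp (hS hs) β).2 (H _ ⟨s, hs, rfl⟩)⟩

theorem mult_eq_of_surj (f : C' →* C) (hf : Function.Surjective f) {χ : IrrCharacter G}
    {χ' : IrrCharacter G'} {ξ : IrrCharacter C} {ξ' : IrrCharacter C'}
    (h1 : ∀ c : C', χ'.1 ⟨c, h' c.2⟩ = χ.1 ⟨f c, h (f c).2⟩) (h2 : ∀ c, ξ'.1 c = ξ.1 (f c)) :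
    mult h' χ' ξ' = mult h χ ξ := by
  haveI := Fintype.ofFinite C
  haveI := Fintype.ofFinite C'
  refine mult_eq_of_inner _ ?_
  rw [funext h1, show ξ'.1 = _ from funext h2, ← mult_spec]
  exact H11.classInner_comp_of_surjective f hf (fun c : C => χ.1 ⟨c, h c.2⟩) ξ.1

end CorrOn

theorem corrOn_central {A : Type*} [Group A] [Finite A] {Z K G U S : Subgroup A} [hK : K.Normal]
    [hG : G.Normal] (hZ : Z ≤ center A) (hZK : Z ≤ K) (hKG : K ≤ G) (hZU : Z ≤ U) (hUG : U ≤ G)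
    (hZS : Z ≤ S) (hab : ∀ a ∈ K, ∀ b ∈ K, ⁅a, b⁆ ∈ Z)
    (hKU : ∀ g ∈ G, ∃ k ∈ K, ∃ u ∈ U, g = k * u) (hGS : ∀ a, ∃ g ∈ G, ∃ s ∈ S, a = g * s)
    (hUS : ∀ u ∈ U, ∀ s ∈ S, ⁅s, u⁆ ∈ Z) (hfix : ∀ k ∈ K, (∀ s ∈ S, ⁅s, k⁆ ∈ Z) → k ∈ U)
    {m n : ℕ} (hm : ∀ s ∈ S, s ^ m ∈ Z) (hn : ∀ g ∈ G, g ^ n = 1) (hcop : m.Coprime n)
    (hodd : Odd n) : CorrOn 2 hUG (fun χ => InvBy G S χ.1) fun _ => True := by
  haveI hZn : Z.Normal := ⟨fun z hz g => by rwa [mem_center_iff.1 (hZ hz) g, mul_inv_cancel_right]⟩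
  have hn' : ∀ k ∈ K, k ^ n ∈ Z := fun k hk => hn k (hKG hk) ▸ one_mem _
  have hUS' : U ≤ normalizer (S : Set A) := fun u hu => mem_normalizer_of_commutator_mem hZS
    fun s hs => by simpa [commutatorElement_def, mul_assoc] using inv_mem (hUS u hu s hs)
  have hBS : U ⊔ S ≤ normalizer (S : Set A) := sup_le hUS' le_normalizer
  set K₀ := ⁅K, S⁆ ⊔ Z with hK₀
  have hK₀K : K₀ ≤ K := sup_le (commutator_le_left _ _) hZK
  have hK₀G := hK₀K.trans hKG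
  have hKU' : ∀ g ∈ G, ∃ k ∈ K₀, ∃ u ∈ U, g = k * u := fun g hg => by
    obtain ⟨k, hk, u, hu, rfl⟩ := hKU g hg
    obtain ⟨a, ha, c, hc, h1, rfl⟩ := exists_commutator_mul_mod le_normalizer' hab hm hn' hcop hk
    exact ⟨a, mem_sup_left ha, _, mul_mem (hfix c hc h1) hu, mul_assoc _ _ _⟩
  have hKB : ∀ a : A, ∃ k ∈ K₀, ∃ b ∈ U ⊔ S, a = k * b := fun a => by
    obtain ⟨g, hg, s, hs, rfl⟩ := hGS a
    obtain ⟨k, hk, u, hu, rfl⟩ := hKU' g hg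
    exact ⟨k, hk, _, mul_mem (mem_sup_left hu) (mem_sup_right hs), mul_assoc _ _ _⟩
  haveI hK₀n : K₀.Normal := normalizer_eq_top_iff.1 (eq_top_iff.2 fun a _ => by
    obtain ⟨k, hk, b, hb, rfl⟩ := hKB a
    exact mul_mem (le_normalizer hk) (H4.le_normalizer_sup (H4.le_normalizer_commutator
      le_normalizer' hBS) le_normalizer' hb))
  have hgen : K₀ ≤ ⁅K₀, S⁆ ⊔ Z := sup_le ((commutator_le_mod le_normalizer' hab hm hn' hcop).trans
    (sup_le_sup_right (commutator_mono le_sup_left le_rfl) _)) le_sup_right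
  have hab₀ : ∀ a ∈ K₀, ∀ b ∈ K₀, ⁅a, b⁆ ∈ Z := fun a ha b hb => hab a (hK₀K ha) b (hK₀K hb)
  obtain ⟨τ, h1, h2, h3⟩ := exists_inverting_aut hZ le_sup_right hab₀ hBS hKB hgen (fun k hk => by
    obtain ⟨s, hs, u, hu, rfl⟩ := (H4.mem_sup_iff_of_le_normalizer hUS').1 (sup_comm U S ▸ hk.2)
    have h1 : s ∈ Z := mem_of_pow_mem_of_coprime (hm s hs) (by
      rw [hn s ((mul_mem_cancel_right (hUG hu)).1 (hK₀G hk.1))]; exact one_mem _) hcop
    exact mem_of_fixed_mod le_normalizer' hab hm hn' hcop hk.1 (hUS _ (mul_mem (hZU h1) hu)))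
    hm (fun k hk => hn k (hK₀G hk)) hcop
  have hτK : ∀ k ∈ K₀, τ k ∈ K₀ := fun k hk =>
    (mul_mem_cancel_right hk).1 (mem_sup_right (h3 k hk))
  have hτG : ∀ g ∈ G, τ g * g⁻¹ ∈ K₀ := fun g hg => by
    obtain ⟨k, hk, u, hu, rfl⟩ := hKU' g hg
    rw [map_mul, h2 u (mem_sup_left hu)]
    simpa [mul_assoc] using mul_mem (hτK k hk) (inv_mem hk)
  have hsq : ∀ k ∈ G, ∀ X : Subgroup A, k * k ∈ X → k ∈ X := fun k hk X h =>
    mem_of_pow_mem_of_coprime (a := 2) (sq k ▸ h) (hn k hk ▸ one_mem X)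
      (Nat.coprime_two_left.2 hodd)
  let j := MulAction.toPermHom A A
  have hj : Function.Injective j := MulAction.toPerm_injective
  let t : Equiv.Perm A := τ.toEquiv
  have ht : ∀ a, t * j a * t⁻¹ = j (τ a) := fun a => Equiv.ext fun x => by
    change τ (a * τ.symm x) = τ a * x
    rw [map_mul, τ.apply_symm_apply]
  have ht2 : t ^ 2 = 1 := Equiv.ext h1
  have hP : ∀ x ∈ zpowers t, x ^ 2 = 1 := by
    rintro _ ⟨k, rfl⟩
    rw [← zpow_natCast, ← zpow_mul, mul_comm, zpow_mul, zpow_natCast, ht2, one_zpow]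
  have hN : ∀ X : Subgroup A, (∀ x ∈ X, τ x ∈ X) →
      zpowers t ≤ normalizer (X.map j : Set (Equiv.Perm A)) := fun X hX =>
    (zpowers_le).2 (mem_normalizer_of_conj_mem (by
      rintro _ ⟨x, hx, rfl⟩; exact ⟨_, hX x hx, (ht x).symm⟩))
  have hC : ∀ X : Subgroup A, X ≤ U ⊔ S →
      zpowers t ≤ centralizer (X.map j : Set (Equiv.Perm A)) := fun X hX =>
    (zpowers_le).2 (by
      rintro _ ⟨x, hx, rfl⟩
      rw [eq_comm, ← mul_inv_eq_iff_eq_mul, ht, h2 x (hX hx)])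
  have hNG := hN G fun g hg => (mul_mem_cancel_right (inv_mem hg)).1 (hK₀G (hτG g hg))
  have hcard : ∀ k : ℕ, k.Coprime n → k.Coprime (Nat.card (G.map j)) := fun k hk =>
    (coprime_card_of_pow (m := n) (by
      rintro ⟨_, g, hg, rfl⟩
      exact Subtype.ext ((map_pow j g n).symm.trans (by rw [hn g hg, map_one]; rfl))) hk.symm).symm
  have h2G := hcard 2 (Nat.coprime_two_left.2 hodd)
  have H : IsCorr 2 (zpowers t) (map_mono hUG : U.map j ≤ G.map j) :=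
    isCorr_of_isPGroup Nat.prime_two (N := ⊥) (fun x => ⟨1, Subtype.ext (hP x x.2)⟩)
      le_normalizer' hNG bot_le le_normalizer'
      (by rw [relIndex_bot_left]; exact (Nat.Prime.coprime_iff_not_dvd Nat.prime_two).1 h2G)
      (fun g => ⟨fun hg => ⟨map_mono hUG hg, fun x hx => by
        rw [← hC U le_sup_left hx g hg]; simp⟩, by
        rintro ⟨⟨g, hg, rfl⟩, h4⟩
        obtain ⟨k, hk, u, hu, rfl⟩ := hKU' g hg
        have h5 := h4 t (mem_zpowers t)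
        rw [mem_bot, mul_inv_eq_one, ht, hj.eq_iff, map_mul, h2 u (mem_sup_left hu),
          mul_left_inj] at h5
        have h6 := h3 k hk
        rw [h5] at h6
        exact ⟨_, mul_mem (hZU (hsq k (hK₀G hk) Z h6)) hu, rfl⟩⟩) _
  have hmapN : ∀ X Y : Subgroup A, X ≤ normalizer (Y : Set A) →
      X.map j ≤ normalizer (Y.map j : Set (Equiv.Perm A)) := fun X Y h =>
    (map_mono h).trans (le_normalizer_map _)
  have hmapC : ∀ X Y V : Subgroup A, (∀ a ∈ X, ∀ b ∈ Y, ⁅a, b⁆ ∈ V) →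
      ∀ a ∈ X.map j, ∀ b ∈ Y.map j, a * b * a⁻¹ * b⁻¹ ∈ V.map j := by
    rintro X Y V h _ ⟨a, ha, rfl⟩ _ ⟨b, hb, rfl⟩
    exact ⟨_, h a ha b hb, map_commutatorElement _ _ _⟩
  have hSG : ∀ s ∈ S.map j, ∀ g ∈ G.map j, s * g * s⁻¹ * g⁻¹ ∈ K₀.map j :=
    hmapC _ _ _ fun s hs g hg => by
      obtain ⟨k, hk, u, hu, rfl⟩ := hKU' g hg
      have : ⁅s, k * u⁆ = s * k * s⁻¹ * ⁅s, u⁆ * k⁻¹ := by simp only [commutatorElement_def]; group
      rw [this]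
      exact mul_mem (mul_mem (hK₀n.conj_mem k hk s) (mem_sup_right (hUS u hu s hs))) (inv_mem hk)
  have hPG : ∀ s ∈ zpowers t, ∀ g ∈ G.map j, s * g * s⁻¹ * g⁻¹ ∈ K₀.map j := by
    have : zpowers t ≤ fixMod (K₀.map j) (G.map j) := (zpowers_le).2
      ⟨hN K₀ hτK (mem_zpowers t), by
        rintro _ ⟨g, hg, rfl⟩
        exact ⟨_, hτG g hg, by rw [ht, map_mul, map_inv]⟩⟩
    exact fun s hs => (this hs).2
  have hm' : ∀ s ∈ S.map j, s ^ m ∈ Z.map j := by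
    rintro _ ⟨s, hs, rfl⟩; exact ⟨_, hm s hs, map_pow _ _ _⟩
  have hP' : ∀ s ∈ zpowers t, s ^ 2 ∈ Z.map j := fun s hs => hP s hs ▸ one_mem _
  have hiff : ∀ β : IrrCharacter (G.map j), InvBy _ (S.map j) β.1 ↔ InvBy _ (zpowers t) β.1 :=
    fun β => ⟨invBy_of_invBy_of_comm (map_mono le_sup_right) (map_mono hK₀G)
      (hmapN _ _ le_normalizer') (hmapN _ _ le_normalizer') (hmapC _ _ _ hab₀)
      (hmapN _ _ le_normalizer') (hN K₀ hτK) (hmapN _ _ le_normalizer')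
      (hC Z (hZU.trans le_sup_left)) (hC S le_sup_right) hSG hPG hm' hP' (hcard m hcop) h2G
      (by rw [← map_commutator, ← Subgroup.map_sup]; exact map_mono hgen),
    invBy_of_invBy_of_comm (map_mono le_sup_right) (map_mono hK₀G)
      (hmapN _ _ le_normalizer') (hmapN _ _ le_normalizer') (hmapC _ _ _ hab₀)
      (hN K₀ hτK) (hmapN _ _ le_normalizer')
      ((hC Z (hZU.trans le_sup_left)).trans (centralizer_le_normalizer _)) (by
        rintro _ ⟨s, -, rfl⟩ _ ⟨z, hz, rfl⟩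
        rw [← map_mul, ← map_mul, mem_center_iff.1 (hZ hz)])
      (le_centralizer_iff.1 (hC S le_sup_right)) hPG hSG hP' hm' h2G (hcard m hcop) (by
        rintro _ ⟨k, hk, rfl⟩
        refine mem_of_pow_mem_of_coprime (a := 2) (b := n) ?_
          (by rw [← map_pow, hn k (hK₀G hk), map_one]; exact one_mem _)
          (Nat.coprime_two_left.2 hodd)
        have : j k ^ 2 = ⁅j k, t⁆ * j (τ k * k) := by
          rw [map_mul, ← ht, commutatorElement_def, sq]; group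
        rw [this]
        exact mul_mem (mem_sup_left (commutator_mem_commutator ⟨k, hk, rfl⟩ (mem_zpowers t)))
          (mem_sup_right ⟨_, h3 k hk, rfl⟩))⟩
  have hker : j.ker = ⊥ := (MonoidHom.ker_eq_bot_iff j).2 hj
  have p1 := IsPre.map j (Y := G) (hker ▸ bot_le)
  have p2 := IsPre.map j (Y := U) (hker ▸ bot_le)
  refine (corrOn_iff _ _ ((GalChar.one j).gal_inj p1) ((GalChar.one j).gal_inj p2)
    ((GalChar.one j).mult_gal p1 p2 (map_mono hUG) hUG) (fun χ _ => GalChar.one_surj p1 ?_)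
    (fun χ _ => GalChar.one_surj p2 ?_)
    (fun β => ((GalChar.one j).invBy_gal p1 le_normalizer' β).trans (hiff β))
    (fun β => iff_of_true trivial fun x hx => invEl_of_centralizes _ fun g hg => by
      rw [← hC U le_sup_left hx g hg, mul_inv_cancel_right])).2 H.corrOn
  all_goals exact fun x hx => congrArg χ.1 (Subtype.ext (hj (hx.trans (map_one j).symm)))

theorem corrOn_local {Γ : Type u} [Group Γ] [Finite Γ] {G K L H S : Subgroup Γ} (hLK : L ≤ K)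
    (hKG : K ≤ G) (hLH : L ≤ H) (hHG : H ≤ G) (hGL : G ≤ normalizer (L : Set Γ))
    (hGK : G ≤ normalizer (K : Set Γ)) (hSL : S ≤ normalizer (L : Set Γ))
    (hSK : S ≤ normalizer (K : Set Γ)) (hSG : S ≤ normalizer (G : Set Γ))
    (hab : ∀ a ∈ K, ∀ b ∈ K, ⁅a, b⁆ ∈ L) (hKH : ∀ g ∈ G, ∃ k ∈ K, ∃ u ∈ H, g = k * u)
    (hHS : ∀ u ∈ H, ∀ s ∈ S, ⁅s, u⁆ ∈ L) (hfix : ∀ k ∈ K, (∀ s ∈ S, ⁅s, k⁆ ∈ L) → k ∈ H)
    (hcop : (Nat.card S).Coprime (Nat.card G)) (hodd : Odd (Nat.card G)) {φ : IrrCharacter L}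
    (hφ : InvBy L (G ⊔ S) φ.1) :
    CorrOn 2 hHG (fun χ => InvBy G S χ.1 ∧ mult (hLH.trans hHG) χ φ ≠ 0)
      fun ψ => mult hLH ψ φ ≠ 0 := by
  have hLG := hLK.trans hKG
  have hA : ∀ {X : Subgroup Γ}, X ≤ G → X ≤ G ⊔ S := fun h => h.trans le_sup_left
  have hAL : G ⊔ S ≤ normalizer (L : Set Γ) := sup_le hGL hSL
  haveI hN : (L.subgroupOf (G ⊔ S)).Normal := (normal_subgroupOf_iff_le_normalizer (hA hLG)).2 hAL
  obtain ⟨E, _, _, π₀, s, θ', h1, h2, h3, h4, h5, h6, -, h8⟩ := H22.exists_central_extension'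
    (L.subgroupOf (G ⊔ S)) (H24.isIrr_subgroupOf (hA hLG) φ.2) fun g n => hφ g g.2 _ _ rfl
  haveI := H12.section_range_normal h4
  let π := (G ⊔ S).subtype.comp π₀
  let q := QuotientGroup.mk' s.range
  have hq := QuotientGroup.mk'_surjective s.range
  have hπ : ∀ x ∈ G ⊔ S, ∃ e, π e = x := fun x hx =>
    (h1 ⟨x, hx⟩).imp fun e he => congrArg Subtype.val he
  have hπs : ∀ n, π (s n) ∈ L := fun n => by
    change ((π₀ (s n) : ↥(G ⊔ S)) : Γ) ∈ L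
    rw [h3]; exact n.2
  have hkq : ∀ e ∈ q.ker, ∃ n, s n = e := fun e he => by rwa [QuotientGroup.ker_mk'] at he
  let T : GalChar q := ⟨θ', H11.isCharacter_of_irr h5, by
    rw [QuotientGroup.ker_mk']
    exact H12.isIrr_res_range_of_comp (H12.section_injective h3)
      (funext h6 ▸ H24.isIrr_subgroupOf (hA hLG) φ.2)⟩
  have pπ : ∀ {X : Subgroup Γ}, X ≤ G ⊔ S → IsPre π (X.comap π) X := fun h =>
    IsPre.comap π fun x hx => hπ x (h hx)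
  have pq : ∀ {X : Subgroup Γ}, L ≤ X → IsPre q (X.comap π) ((X.comap π).map q) := fun h =>
    IsPre.map q fun e he => by obtain ⟨n, rfl⟩ := hkq e he; exact h (hπs n)
  have hmem : ∀ {X : Subgroup Γ}, L ≤ X → ∀ e, q e ∈ (X.comap π).map q ↔ π e ∈ X :=
    fun h e => ((pq h).mem e).symm
  have hnorm : ∀ {X : Subgroup Γ}, L ≤ X → X ≤ G → G ⊔ S ≤ normalizer (X : Set Γ) →
      ((X.comap π).map q).Normal := fun h h' h'' =>
    normalizer_eq_top_iff.1 (eq_top_iff.2 fun a _ => by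
      obtain ⟨e, rfl⟩ := hq a
      exact (pq h).mem_normalizer ((pπ (hA h')).mem_normalizer' (h'' (π₀ e).2)))
  have hmono : ∀ {X Y : Subgroup Γ}, X ≤ Y → (X.comap π).map q ≤ (Y.comap π).map q :=
    fun h => map_mono (comap_mono h)
  have hfac : ∀ {X Y : Subgroup Γ}, L ≤ X → L ≤ Y → X ≤ G → ∀ e, (∃ x ∈ X, ∃ y ∈ Y, π e = x * y) →
      ∃ x ∈ (X.comap π).map q, ∃ y ∈ (Y.comap π).map q, q e = x * y := by
    rintro X Y h h' h'' e ⟨x, hx, y, hy, h0⟩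
    obtain ⟨e₁, rfl⟩ := hπ x (hA h'' hx)
    exact ⟨q e₁, (hmem h _).2 hx, q (e₁⁻¹ * e), (hmem h' _).2 (by
      rwa [map_mul, map_inv, h0, inv_mul_cancel_left]), by rw [← map_mul, mul_inv_cancel_left]⟩
  have hcomm : ∀ {X Y : Subgroup Γ}, (∀ a ∈ X, ∀ b ∈ Y, ⁅a, b⁆ ∈ L) →
      ∀ a ∈ (X.comap π).map q, ∀ b ∈ (Y.comap π).map q, ⁅a, b⁆ ∈ (L.comap π).map q := by
    rintro X Y h _ ⟨a, ha, rfl⟩ _ ⟨b, hb, rfl⟩
    rw [← map_commutatorElement, hmem le_rfl, map_commutatorElement]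
    exact h _ ha _ hb
  haveI := hnorm hLK hKG (sup_le hGK hSK)
  haveI := hnorm hLG le_rfl (sup_le le_normalizer hSG)
  have hc : (Nat.card (L.subgroupOf (G ⊔ S))) ∣ Nat.card G := by
    rw [H4.card_subgroupOf_of_le (hA hLG)]; exact card_dvd_of_le hLG
  have H := corrOn_central (Z := (L.comap π).map q) (K := (K.comap π).map q)
    (S := ((L ⊔ S).comap π).map q) (by
      rintro _ ⟨e, he, rfl⟩
      obtain ⟨n, z, hz, rfl⟩ := H12.exists_eq_section_mul h3 (x := e) he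
      rw [map_mul, show q (s n) = 1 from (QuotientGroup.eq_one_iff _).2 ⟨n, rfl⟩, one_mul]
      refine mem_center_iff.2 fun g => ?_
      obtain ⟨g, rfl⟩ := hq g
      rw [← map_mul, ← map_mul, mem_center_iff.1 (h2 hz)])
    (hmono hLK) (hmono hKG) (hmono hLH) (hmono hHG) (hmono le_sup_left) (hcomm hab)
    (by rintro _ ⟨e, he, rfl⟩; exact hfac hLK hLH hKG e (hKH _ he))
    (fun a => by
      obtain ⟨e, rfl⟩ := hq a
      obtain ⟨g, hg, x, hx, h⟩ := (H4.mem_sup_iff_of_le_normalizer hSG).1 (π₀ e).2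
      exact hfac hLG le_sup_left le_rfl e ⟨g, hg, x, mem_sup_right hx, h.symm⟩)
    (fun u hu x hx => hcomm (fun a ha b hb =>
      ((sup_le (fun l hl => ⟨le_normalizer hl, fun g hg => by
        simpa [mul_assoc] using mul_mem hl (H4.conj_mem_of_mem_normalizer (hGL (hHG hg))
          (inv_mem hl))⟩) fun x hx => ⟨hSL hx, fun g hg => hHS g hg x hx⟩ :
            L ⊔ S ≤ fixMod L H) ha).2 b hb) x hx u hu)
    (by
      rintro _ ⟨e, he, rfl⟩ h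
      refine (hmem hLH e).2 (hfix _ he fun x hx => ?_)
      obtain ⟨e₁, rfl⟩ := hπ x (mem_sup_right hx)
      have := h _ ((hmem le_sup_left e₁).2 (mem_sup_right hx))
      rwa [← map_commutatorElement, hmem le_rfl, map_commutatorElement] at this)
    (m := Nat.card S) (n := Nat.card G * (Nat.card (L.subgroupOf (G ⊔ S)) *
      Nat.card (L.subgroupOf (G ⊔ S))))
    (by
      rintro _ ⟨e, he, rfl⟩
      obtain ⟨l, hl, x, hx, h⟩ := (H4.mem_sup_iff_of_le_normalizer hSL).1 he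
      have := mul_pow_mul_inv_mem hl (hSL hx) (Nat.card S)
      rwa [H4.pow_card_eq_one_of_mem hx, inv_one, mul_one, h, ← map_pow, ← hmem le_rfl,
        map_pow] at this)
    (by
      rintro _ ⟨e, he, rfl⟩
      rw [← map_pow, pow_mul, h8 _ (Subtype.ext ((map_pow π e _).trans
        (H4.pow_card_eq_one_of_mem he))), map_one])
    (hcop.mul_right ((hcop.coprime_dvd_right hc).mul_right (hcop.coprime_dvd_right hc)))
    (hodd.mul ((hodd.of_dvd_nat hc).mul (hodd.of_dvd_nat hc)))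
  have hSE : (L ⊔ S).comap π ≤ normalizer (G.comap π : Set E) := fun e he =>
    (pπ le_sup_left).mem_normalizer' (sup_le (hLG.trans le_normalizer) hSG he)
  have H₁ := (corrOn_iff (h := comap_mono hHG)
    (X := fun μ => InvBy _ ((L ⊔ S).comap π) μ.1 ∧ mult (pq hLG).ker_le μ T.ker ≠ 0)
    (Y := fun μ => mult (pq hLH).ker_le μ T.ker ≠ 0) _ _ (T.gal_inj (pq hLG)) (T.gal_inj (pq hLH))
    (T.mult_gal (pq hLG) (pq hLH) _ _) (fun _ h => T.gal_surj _ h.2) (fun _ h => T.gal_surj _ h)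
    (fun β => (and_iff_left (by rw [T.mult_gal_ker]; exact (H24.deg_pos β.2).ne')).trans
      (T.invBy_gal _ hSE β))
    (fun β => iff_true_intro (by rw [T.mult_gal_ker]; exact (H24.deg_pos β.2).ne'))).2 H
  have H₂ := H₁.restrict
    (X₁ := fun μ => (InvBy _ ((L ⊔ S).comap π) μ.1 ∧ mult (pq hLG).ker_le μ T.ker ≠ 0) ∧
      mult (pπ (hA le_rfl)).ker_le μ (GalChar.one π).ker ≠ 0)
    (Y₁ := fun μ => mult (pq hLH).ker_le μ T.ker ≠ 0 ∧
      mult (pπ (hA hHG)).ker_le μ (GalChar.one π).ker ≠ 0) (fun _ h => h.1) (fun _ h => h.1)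
    fun μ ν a b c => by
      rw [and_iff_right a, and_iff_right b]
      exact ⟨fun d => over_of_under _ _ le_normalizer' (fun _ _ _ _ _ => rfl) d c,
        fun d => mult_trans_ne_zero _ _ c d⟩
  let f : q.ker →* L := (π.comp q.ker.subtype).codRestrict L fun x => by
    obtain ⟨n, hn⟩ := hkq x x.2
    change π x ∈ L
    rw [← hn]; exact hπs n
  have hf : Function.Surjective f := fun l =>
    ⟨⟨s ⟨⟨l, hA hLG l.2⟩, l.2⟩, (QuotientGroup.eq_one_iff _).2 ⟨_, rfl⟩⟩,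
      Subtype.ext (show ((π₀ (s _) : ↥(G ⊔ S)) : Γ) = l by rw [h3])⟩
  have key : ∀ {X : Subgroup Γ} (h : L ≤ X) (h' : X ≤ G) (χ : IrrCharacter X),
      mult (pq h).ker_le ((GalChar.one π).gal (pπ (hA h')) χ) T.ker = mult h χ φ :=
    fun h h' χ => mult_eq_of_surj f hf (fun c => one_mul _) fun c => by
      obtain ⟨n, hn⟩ := hkq c c.2
      change θ' c = φ.1 ⟨π c, _⟩
      simp only [← hn, h6]
      exact congrArg φ.1 (Subtype.ext (congrArg Subtype.val (h3 n)).symm)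
  refine (corrOn_iff _ _ ((GalChar.one π).gal_inj _) ((GalChar.one π).gal_inj _)
    ((GalChar.one π).mult_gal (pπ (hA le_rfl)) (pπ (hA hHG)) _ _)
    (fun _ h => GalChar.gal_surj _ _ h.2) (fun _ h => GalChar.gal_surj _ _ h.2)
    (fun χ => ?_) fun ψ => ?_).1 H₂
  · rw [GalChar.mult_gal_ker, and_iff_left (H24.deg_pos χ.2).ne', key hLG le_rfl,
      GalChar.invBy_gal _ _ hSE, map_comap_eq_self (pπ (sup_le (hA hLG) le_sup_right)).le,
      sup_comm, invBy_sup_iff hLG hSG]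
  · rw [GalChar.mult_gal_ker, and_iff_left (H24.deg_pos ψ.2).ne', key hLH hHG]

theorem mult_clifford {Γ : Type*} [Group Γ] [Finite Γ] {L T G T' H : Subgroup Γ} (h₁ : L ≤ T')
    (h₂ : T' ≤ T) (h₃ : T' ≤ H) (h₄ : T ≤ G) (h₅ : H ≤ G) (hG : G ≤ normalizer (L : Set Γ))
    {φ : IrrCharacter L} (hT : invStab L φ.1 ⊓ G ≤ T) (hT' : invStab L φ.1 ⊓ H ≤ T')
    {χ : IrrCharacter G} {η : IrrCharacter T} {ψ : IrrCharacter H} {ξ : IrrCharacter T'}
    (a : mult h₄ χ η ≠ 0) (b : mult (h₁.trans h₂) η φ ≠ 0) (c : mult h₃ ψ ξ ≠ 0)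
    (d : mult h₁ ξ φ ≠ 0) : mult h₅ χ ψ = mult h₂ η ξ := by
  haveI := Fintype.ofFinite (IrrCharacter T)
  haveI := Fintype.ofFinite (IrrCharacter H)
  have e1 := mult_trans h₃ h₅ χ ξ
  have e2 := mult_trans h₂ h₄ χ ξ
  rw [Finset.sum_eq_single ψ (fun ψ' _ h => by
    by_contra h0
    exact h (clifford_unique_over h₁ h₃ (h₅.trans hG) hT' d c (right_ne_zero_of_mul h0))) (by simp),
    (clifford_aux h₁ h₃ (h₅.trans hG) hT' d c).1, mul_one] at e1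
  rw [Finset.sum_eq_single η (fun η' _ h => by
    by_contra h0
    exact h (clifford_unique_under _ h₄ hG hT b a
      (mult_trans_ne_zero h₁ h₂ (right_ne_zero_of_mul h0) d) (left_ne_zero_of_mul h0))) (by simp),
    (clifford_aux _ h₄ hG hT b a).1, one_mul] at e2
  exact e1.symm.trans e2

theorem exists_centralizer_cj_eq {Γ : Type*} [Group Γ] [Finite Γ] {L G S : Subgroup Γ}
    (hGL : G ≤ normalizer (L : Set Γ)) (hSL : S ≤ normalizer (L : Set Γ))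
    (hSG : S ≤ normalizer (G : Set Γ)) (hcop : (Nat.card S).Coprime (Nat.card G))
    (hs : Group.IsSolvable S ∨ Group.IsSolvable G) {φ : IrrCharacter L} (hφ : InvBy L S φ.1)
    {g : Γ} (hg : g ∈ G) (h : InvBy L S (cj L ⟨g, hGL hg⟩ φ).1) :
    ∃ (c : Γ) (hc : c ∈ G ⊓ centralizer (S : Set Γ)),
      cj L ⟨c, hGL hc.1⟩ φ = cj L ⟨g, hGL hg⟩ φ := by
  have hSI := (le_invStab_iff hSL).2 hφ
  obtain ⟨d, hd, h1⟩ := H4.exists_mul_mem_centralizer (D := invStab L φ.1 ⊓ G)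
    (H4.le_normalizer_inf (hSI.trans le_normalizer) hSG) (H4.coprime_of_le_right hcop inf_le_right)
    (H4.solv_or_of_le hs inf_le_right) (x := g) fun s hs => by
      refine mem_inf.2 ⟨?_, mul_mem (inv_mem hg) (H4.conj_mem_of_mem_normalizer (hSG hs) hg)⟩
      have h1 : g⁻¹ * s * g ∈ normalizer (L : Set Γ) :=
        mul_mem (mul_mem (inv_mem (hGL hg)) (hSL hs)) (hGL hg)
      have := invEl_cj (⟨g, hGL hg⟩ : normalizer (L : Set Γ))⁻¹ h1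
        (χ := cj L ⟨g, hGL hg⟩ φ) (by simpa [mul_assoc] using invBy_iff.1 h s hs)
      rw [cj_inv_cj] at this
      simpa [mul_assoc] using mul_mem (show _ ∈ invStab L φ.1 from ⟨h1, this⟩) (inv_mem (hSI hs))
  refine ⟨g * d, ⟨mul_mem hg (mem_inf.1 hd).2, h1⟩, ?_⟩
  rw [show (⟨g * d, _⟩ : normalizer (L : Set Γ)) = ⟨g, hGL hg⟩ * ⟨d, hGL hd.2⟩ from rfl, cj_mul,
    (cj_eq_self_iff _ φ).2 hd.1.2]

/-- Isaacs' odd multiplicity correspondence. -/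
theorem corrOn_isaacs {Γ : Type u} [Group Γ] [Finite Γ] {G K L H S : Subgroup Γ} (hLK : L ≤ K)
    (hKG : K ≤ G) (hHG : H ≤ G) (hGL : G ≤ normalizer (L : Set Γ))
    (hGK : G ≤ normalizer (K : Set Γ)) (hSL : S ≤ normalizer (L : Set Γ))
    (hSK : S ≤ normalizer (K : Set Γ)) (hSG : S ≤ normalizer (G : Set Γ))
    (hab : ∀ a ∈ K, ∀ b ∈ K, ⁅a, b⁆ ∈ L) (hGK' : K ⊔ G ⊓ centralizer (S : Set Γ) = G)
    (hH : H = L ⊔ G ⊓ centralizer (S : Set Γ)) (hcop : (Nat.card S).Coprime (Nat.card G))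
    (hs : Group.IsSolvable G) (hodd : Odd (Nat.card G)) :
    CorrOn 2 hHG (fun χ => InvBy G S χ.1) fun ψ => InvBy H S ψ.1 := by
  have hLG := hLK.trans hKG
  have hLH : L ≤ H := hH ▸ le_sup_left
  have hCH : G ⊓ centralizer (S : Set Γ) ≤ H := hH ▸ le_sup_right
  have hHL := hHG.trans hGL
  have htriv : ∀ X : Subgroup Γ, S ≤ normalizer (X : Set Γ) → G ≤ normalizer (X : Set Γ) →
      ∀ u ∈ X ⊔ G ⊓ centralizer (S : Set Γ), ∀ s ∈ S, ⁅s, u⁆ ∈ X := fun X h1 h2 u hu s hs => by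
    obtain ⟨x, hx, c, hc, rfl⟩ := (H4.mem_sup_iff_of_le_normalizer (inf_le_left.trans h2)).1 hu
    rw [← commutatorElement_inv, H4.commutatorElement_mul_of_mem_centralizer hc.2 hs,
      commutatorElement_inv]
    exact mul_mem (H4.conj_mem_of_mem_normalizer (h1 hs) hx) (inv_mem hx)
  have hHS : ∀ u ∈ H, ∀ s ∈ S, ⁅s, u⁆ ∈ L := hH ▸ htriv L hSL hGL
  have hcent : ∀ X : Subgroup Γ, X ≤ G → S ≤ normalizer (X : Set Γ) → ∀ k, (∀ s ∈ S, ⁅s, k⁆ ∈ X) →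
      ∃ n ∈ X, n * k ∈ centralizer (S : Set Γ) := fun X h1 h2 k h =>
    H4.exists_centralizer_of_fixed_mod h2 (H4.coprime_of_le_right hcop h1)
      (H4.solv_or_of_le (Or.inr hs) h1) h
  have hm : ∀ s ∈ S, s ^ Nat.card S ∈ L := fun s hs => H4.pow_card_eq_one_of_mem hs ▸ one_mem _
  have hmH : (Nat.card S).Coprime (L.relIndex H) :=
    hcop.coprime_dvd_right ((relIndex_dvd_card _ _).trans (card_dvd_of_le hHG))
  have l1 : ∀ φ : IrrCharacter L, ∀ {X : Subgroup Γ}, L ≤ X → L ≤ invStab L φ.1 ⊓ X :=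
    fun φ _ h => le_inf (le_invStab (H11.isClassFunction_of_irr φ.2)) h
  have l2 : ∀ φ : IrrCharacter L, invStab L φ.1 ⊓ H ≤ invStab L φ.1 ⊓ G :=
    fun φ => inf_le_inf_left _ hHG
  have hST : ∀ {φ : IrrCharacter L}, InvBy L S φ.1 → ∀ {X : Subgroup Γ},
      S ≤ normalizer (X : Set Γ) → S ≤ normalizer ((invStab L φ.1 ⊓ X : Subgroup Γ) : Set Γ) :=
    fun hφ _ h => H4.le_normalizer_inf (((le_invStab_iff hSL).2 hφ).trans le_normalizer) h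
  have loc : ∀ φ : IrrCharacter L, InvBy L S φ.1 → CorrOn 2 (l2 φ)
      (fun χ => InvBy _ S χ.1 ∧ mult (l1 φ hLG) χ φ ≠ 0) fun ψ => mult (l1 φ hLH) ψ φ ≠ 0 :=
    fun φ hφ => corrOn_local (K := invStab L φ.1 ⊓ K) (l1 φ hLK) (inf_le_inf_left _ hKG) _ _
      (inf_le_right.trans hGL) (H4.le_normalizer_inf (inf_le_left.trans le_normalizer)
        (inf_le_right.trans hGK)) hSL (hST hφ hSK) (hST hφ hSG)
      (fun a ha b hb => hab a ha.2 b hb.2)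
      (fun g hg => by
        obtain ⟨n, hn, h⟩ := hcent _ (inf_le_right.trans hKG) (hST hφ hSK) g fun s hs =>
          mem_inf.2 ⟨by
            have := (le_invStab_iff hSL).2 hφ hs
            exact mul_mem (mul_mem (mul_mem this hg.1) (inv_mem this)) (inv_mem (mem_inf.1 hg).1),
            htriv K hSK hGK g (hGK'.ge hg.2) s hs⟩
        exact ⟨n⁻¹, inv_mem hn, n * g, mem_inf.2 ⟨mul_mem (mem_inf.1 hn).1 hg.1,
          hCH ⟨mul_mem (hKG hn.2) (mem_inf.1 hg).2, h⟩⟩, by group⟩)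
      (fun u hu => hHS u (mem_inf.1 hu).2)
      (fun k hk h => by
        obtain ⟨n, hn, h⟩ := hcent L hLG hSL k h
        exact ⟨hk.1, (mul_mem_cancel_left (hLH hn)).1 (hCH ⟨mul_mem (hLG hn) (hKG hk.2), h⟩)⟩)
      (H4.coprime_of_le_right hcop inf_le_right) (hodd.of_dvd_nat (card_dvd_of_le inf_le_right))
      (InvBy.sup (inf_le_right.trans hGL) hSL (invBy_of_le_invStab inf_le_left) hφ)
  have hunder : ∀ ψ : IrrCharacter H, InvBy H S ψ.1 →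
      ∃ φ : IrrCharacter L, InvBy L S φ.1 ∧ mult hLH ψ φ ≠ 0 := fun ψ hψ =>
    (exists_under hLH ψ).imp fun φ a => ⟨fun s hs => invEl_under_of_trivial hLH hHL (hSL hs)
      (fun g hg => hHS g hg s hs) (hm s hs) hmH a (hψ s hs), a⟩
  have hclif : ∀ (χ : IrrCharacter G) (φ : IrrCharacter L), InvBy G S χ.1 → InvBy L S φ.1 →
      mult hLG χ φ ≠ 0 → ∃ η : IrrCharacter ↥(invStab L φ.1 ⊓ G), mult inf_le_right χ η ≠ 0 ∧
        InvBy _ S η.1 ∧ mult (l1 φ hLG) η φ ≠ 0 := fun χ φ hχ hφ a => by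
    obtain ⟨η, b, c⟩ := exists_between (l1 φ hLG) inf_le_right a
    refine ⟨η, b, fun s hs => (cj_eq_self_iff ⟨s, hST hφ hSG hs⟩ η).1 ?_, c⟩
    exact clifford_unique_under _ _ hGL le_rfl c b
      (by rwa [mult_cj_left _ _ (hSL hs) _ (hφ s hs)]) (by rwa [mult_cj_right _ (hSG hs) _ (hχ s hs)])
  refine ⟨fun χ hχ => ?_, fun ψ hψ => ?_, fun χ ψ ψ' hχ hψ hψ' a a' => ?_,
    fun χ χ' ψ hχ hχ' hψ a a' => ?_⟩
  · obtain ⟨φ, a, hφ⟩ := exists_inv_under hLG hGL hSG hSL hm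
      (hcop.coprime_dvd_right (relIndex_dvd_card _ _)) (Or.inr (solvMod_of_isSolvable _ hs)) χ hχ
    obtain ⟨η, b, c, d⟩ := hclif χ φ hχ hφ a
    obtain ⟨ξ, e, f⟩ := (loc φ hφ).exR η ⟨c, d⟩
    obtain ⟨ψ, g⟩ := exists_over inf_le_right ξ
    exact ⟨ψ, fun s hs => invEl_over_of_trivial hLH hHL (hSL hs) (fun g hg => hHS g hg s hs)
      (hm s hs) hmH (mult_trans_ne_zero _ _ g e) (hφ s hs),
      by rwa [mult_clifford _ _ _ _ hHG hGL le_rfl le_rfl b d g e]⟩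
  · obtain ⟨φ, hφ, a⟩ := hunder ψ hψ
    obtain ⟨ξ, g, e⟩ := exists_between (l1 φ hLH) inf_le_right a
    obtain ⟨η, ⟨c, d⟩, f⟩ := (loc φ hφ).exL ξ e
    obtain ⟨χ, b⟩ := exists_over inf_le_right η
    refine ⟨χ, fun s hs => (cj_eq_self_iff ⟨s, hSG hs⟩ χ).1 (clifford_unique_over _ _ hGL le_rfl d b
      (by rwa [mult_cj_left _ _ (hST hφ hSG hs) _ (c s hs)])), ?_⟩
    rwa [mult_clifford _ _ _ _ hHG hGL le_rfl le_rfl b d g e]
  · obtain ⟨φ, hφ, b⟩ := hunder ψ hψ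
    obtain ⟨φ', hφ', b'⟩ := hunder ψ' hψ'
    have c := mult_trans_ne_zero _ _ (ne_zero_of_not_dvd a) b
    obtain ⟨g, rfl⟩ := exists_cj_eq_of_mult_ne_zero _ hGL c
      (mult_trans_ne_zero _ _ (ne_zero_of_not_dvd a') b')
    obtain ⟨x, hx, e⟩ := exists_centralizer_cj_eq hGL hSL hSG hcop (Or.inr hs) hφ g.2 hφ'
    rw [← e, mult_cj_of_mem _ (hCH hx)] at b'
    obtain ⟨η, d, d', d''⟩ := hclif χ φ hχ hφ c
    obtain ⟨ξ, f, f'⟩ := exists_between (l1 φ hLH) inf_le_right b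
    obtain ⟨ξ', g, g'⟩ := exists_between (l1 φ hLH) inf_le_right b'
    rw [mult_clifford _ (l2 φ) _ _ hHG hGL le_rfl le_rfl d d'' f f'] at a
    rw [mult_clifford _ (l2 φ) _ _ hHG hGL le_rfl le_rfl d d'' g g'] at a'
    obtain rfl := (loc φ hφ).uniqR _ _ _ ⟨d', d''⟩ f' g' a a'
    exact clifford_unique_over _ _ hHL le_rfl f' g f
  · obtain ⟨φ, hφ, b⟩ := hunder ψ hψ
    obtain ⟨η, d, d', d''⟩ := hclif χ φ hχ hφ (mult_trans_ne_zero _ _ (ne_zero_of_not_dvd a) b)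
    obtain ⟨η', e, e', e''⟩ := hclif χ' φ hχ' hφ (mult_trans_ne_zero _ _ (ne_zero_of_not_dvd a') b)
    obtain ⟨ξ, f, f'⟩ := exists_between (l1 φ hLH) inf_le_right b
    rw [mult_clifford _ (l2 φ) _ _ hHG hGL le_rfl le_rfl d d'' f f'] at a
    rw [mult_clifford _ (l2 φ) _ _ hHG hGL le_rfl le_rfl e e'' f f'] at a'
    obtain rfl := (loc φ hφ).uniqL _ _ _ ⟨d', d''⟩ ⟨e', e''⟩ f' a a'
    exact clifford_unique_over _ _ hGL le_rfl d'' e d

end Cfsg.Agent.H23
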