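import Mathlib
import Cfsg.Agent.H45.OnDefs

/-!
# Counting the components linked with a point moved by a line
-/

set_option autoImplicit false

namespace Cfsg.Agent.H23.OnIa

open Cfsg.Agent.H45.On

universe u v

theorem ia : IaStmt.{u, v} := by
  intro G Ω _ _ _ _ S L K U z w hU hzw _
  classical
  obtain ⟨⟨g, hgU⟩, hg1⟩ := (Subgroup.ne_bot_iff_exists_ne_one).1 (K.ne_bot hU)
  obtain ⟨w0, hw0⟩ : ∃ w0 : Ω, g • w0 ≠ w0 := by
    by_contra h
    push Not at h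
    exact hg1 (Subtype.ext (S.faith g h))
  obtain ⟨U', hU', hmax⟩ := Set.exists_max_image {U' | L.Ln U'} (fun U' => (L.Ap U U').ncard)
    (Set.toFinite _) ⟨U, hU⟩
  refine ⟨U', hU', ?_⟩
  rw [K.kk_eq z w0, S0.Li.be, S0.Li.kk, Set.ncard_eq_toFinset_card _ (Set.toFinite _),
    Set.ncard_eq_toFinset_card {M | L.Cp w0 M} (Set.toFinite _)]
  refine Finset.card_mul_le_card_mul
    (fun z' W => L.Ln (W ⊓ cj g W) ∧ z' ∈ L.Ap U (W ⊓ cj g W)) (fun z' hz' => ?_) fun W _ => ?_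
  · rw [Set.Finite.mem_toFinset] at hz'
    obtain ⟨M0, hM0, hUM0⟩ := id hz'
    have hne : z' ≠ w0 := fun h => hw0 (h ▸ K.fx hz' g hgU)
    have key : ∀ M' : Subgroup G, ∃ W : Subgroup G, L.Cp z' M' → L.Lk M' w0 → M' ≠ M0 →
        L.Cp w0 W ∧ L.Ln (W ⊓ cj g W) ∧ W ⊓ cj g W ≤ M' := fun M' => by
      by_cases h : L.Lk M' w0
      · obtain ⟨V, hV, hVM, W, hW, hVW⟩ := h
        refine ⟨W, fun h1 _ h2 => ?_⟩
        have h3 : cj g V = V :=
          cj_of_comm fun m hm => S.comm hM0.1 h1.1 h2.symm g (hUM0 hgU) m (hVM hm)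
        have h4 := K.eq_inf hV hW (K.cp g hW) hVW (h3 ▸ cj_le.2 hVW) hw0.symm
        exact ⟨hW, h4 ▸ hV, h4 ▸ hVM⟩
      · exact ⟨⊥, fun _ h1 => absurd h1 h⟩
    choose f hf using key
    rw [K.mu_eq hzw hne, S0.Li.mu, ← Set.ncard_coe_finset]
    refine (Set.pred_ncard_le_ncard_sdiff_singleton _ M0).trans
      (Set.ncard_le_ncard_of_injOn f (fun M' hM' => ?_) (fun M' hM' M'' hM'' h => ?_))
    · obtain ⟨h1, h2, h3⟩ := hf M' hM'.1.1 hM'.1.2 hM'.2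
      exact Finset.mem_coe.2 (Finset.mem_filter.2 ⟨(Set.Finite.mem_toFinset _).2 h1, h2, hz', M',
        hM'.1.1, h3, fun h4 => hM'.2 (K.eq_at (K.ne_bot hU) hM'.1.1.1 hM0.1 h4 hUM0)⟩)
    · obtain ⟨-, h2, h3⟩ := hf M' hM'.1.1 hM'.1.2 hM'.2
      obtain ⟨-, -, h4⟩ := hf M'' hM''.1.1 hM''.1.2 hM''.2
      exact K.eq_at (K.ne_bot h2) hM'.1.1.1 hM''.1.1.1 h3 (h ▸ h4)
  · by_cases h : L.Ln (W ⊓ cj g W)
    · refine le_trans ?_ (hmax _ h)
      rw [← Set.ncard_coe_finset]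
      refine Set.ncard_le_ncard fun z' hz' => ?_
      exact (Finset.mem_filter.1 hz').2.2
    · refine (Finset.card_eq_zero.2 (Finset.eq_empty_of_forall_notMem fun z' hz' => ?_)).trans_le
        (Nat.zero_le _)
      exact h (Finset.mem_filter.1 hz').2.1

end Cfsg.Agent.H23.OnIa
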