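import Cfsg.Agent.H18.RfDefs
import Cfsg.Agent.H16.A10A
import Cfsg.Agent.H42.Local

/-!
# Weak closure of the even cocode module
-/

set_option autoImplicit false

namespace Cfsg.Agent.H23.RfWcT

open Cfsg Subgroup Cfsg.Agent.H18.MaxOff Cfsg.Agent.H18.Rf
open Cfsg.Agent.H42 hiding cj card_cj mem_cj
open Cfsg.Agent.H83 Cfsg.Agent.H83.J4
open Cfsg.Agent.H49.JU (ca cm ca_eq ca_lt ca_xor fld_cm)
open Cfsg.Agent.H16.A10 (offender exists_eL chk_W eL eL_ok of_inW inW_iff inW toM_eL_zero)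
open scoped symmDiff Pointwise

universe u

theorem bound {F : Subgroup M24} (hP : F ≤ P24) (sq : ∀ x ∈ F, x * x = 1) (T : Finset ℕ)
    (hT : ∀ j ∈ T, j < 2048) (fix : ∀ p, inM p = true → toM p ∈ F → ∀ j ∈ T, ca p j = j)
    (hc : 2048 ≤ Nat.card F * T.card) : F = ⊥ := by
  have hR := offender hP sq T hT fix (by omega)
  have h16 : Nat.card F ≤ 16 := card_RB ▸ card_le_of_le hR
  by_contra hF
  obtain ⟨⟨x, hx⟩, hx1⟩ := (ne_bot_iff_exists_ne_one).1 hF
  obtain ⟨m, hm, rfl⟩ := exists_eL (hR hx)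
  have hm0 : m ≠ 0 := by
    rintro rfl
    exact hx1 (Subtype.ext toM_eL_zero)
  have k := of_allB chk_W.2.2.2.1 hm
  rw [beq_false_iff.2 hm0, Bool.false_or, force_eq, force_eq] at k
  simp only [Bool.and_eq_true, ble_iff] at k
  obtain ⟨-, k1, -, k2⟩ := k
  have fm : ∀ j ∈ T, mv (cm (eL m)) j = j := fun j hj => ca_eq _ _ ▸ fix _ (eL_ok hm) hx j hj
  have h128 : T.card ≤ 128 := by
    rw [cnt_eq_card] at k1
    refine le_trans (Finset.card_le_card fun j hj => ?_) k1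
    exact Finset.mem_filter.2 ⟨Finset.mem_range.2 (hT j hj), beq_iff.2 (fm j hj)⟩
  by_cases h2 : ∀ y ∈ F, y = 1 ∨ y = toM (eL m)
  · have : Nat.card F ≤ 2 := by
      rw [← SetLike.coe_sort_coe, Nat.card_coe_set_eq]
      exact (Set.ncard_le_ncard (t := {1, toM (eL m)}) h2 (Set.toFinite _)).trans
        ((Set.ncard_insert_le _ _).trans (by rw [Set.ncard_singleton]))
    have := Nat.mul_le_mul this h128
    omega
  push Not at h2
  obtain ⟨y, hy, y1, y2⟩ := h2
  obtain ⟨n, hn, rfl⟩ := exists_eL (hR hy)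
  have k3 := of_allB k2 hn
  rw [beq_false_iff.2 (by rintro rfl; exact y1 toM_eL_zero), beq_false_iff.2 (by
    rintro rfl; exact y2 rfl), Bool.false_or, Bool.false_or, force_eq] at k3
  have hW : ∀ j ∈ T, inW j = true := fun j hj => by
    have k4 := of_allB k3 (hT j hj)
    rwa [beq_iff.2 (fm j hj), beq_iff.2 (ca_eq _ _ ▸ fix _ (eL_ok hn) hy j hj), Bool.not_true,
      Bool.false_or, Bool.false_or] at k4
  have h64 : T.card ≤ 64 := by
    rw [← Finset.card_range 64]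
    refine Finset.card_le_card_of_injOn (mv H16.A10.mWi)
      (fun j hj => Finset.mem_coe.2 (Finset.mem_range.2 (inW_iff.1 (hW j hj)))) fun i hi j hj e => ?_
    rw [← of_inW (hT i hi) (hW i hi), e, of_inW (hT j hj) (hW j hj)]
  have := Nat.mul_le_mul h16 h64
  omega

theorem ev_rp {j : ℕ} (hj : j < 2048) : Even (toSet (rp j)).card := by
  rw [card_toSet (lab_aux hj).2.2.1, Nat.even_iff]
  exact (lab_aux hj).2.2.2.1

theorem ev_xor {a b : ℕ} (ha : Even (toSet a).card) (hb : Even (toSet b).card) :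
    Even (toSet (a ^^^ b)).card := by
  have h := card_symmDiff_add (toSet a) (toSet b)
  rw [← toSet_xor] at h
  change (toSet (a ^^^ b)).card + _ = _ at h
  rw [Nat.even_iff] at *
  omega

variable {G : Type u} [Group G] {V : Subgroup G} {ρ : NN V →* M24} {ψ : Finset GolayPt → G}
  (S : St V ρ) (T : Tod V ρ ψ)
include S T

theorem psi_eq {a b : ℕ} (ha : a < 2 ^ 24) (hb : b < 2 ^ 24) (ea : Even (toSet a).card)
    (eb : Even (toSet b).card) : ψ (toSet a) = ψ (toSet b) ↔ cw a = cw b := by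
  have h1 := T.ker _ (ev_xor ea eb)
  have h2 := cw_zero_iff (xor_lt ha hb) (ev_xor ea eb)
  have h3 : ψ (toSet (a ^^^ b)) = ψ (toSet a) * ψ (toSet b) :=
    (congrArg ψ (toSet_xor a b)).trans (T.add _ _ ea eb)
  rw [← Nat.xor_eq_zero_iff, ← cw_xor ha hb]
  refine Iff.trans ?_ (h1.trans h2.symm)
  rw [h3, ← S.el _ (T.mem _ eb), mul_left_inj]

theorem psi_cw {a : ℕ} (ha : a < 2 ^ 24) (ea : Even (toSet a).card) :
    ψ (toSet a) = ψ (toSet (rp (cw a))) :=
  (psi_eq S T ha (lab_aux (cw_lt ha)).2.2.1 ea (ev_rp (cw_lt ha))).2 (lab_aux (cw_lt ha)).2.1.symm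

theorem chi_inj {i j : ℕ} (hi : i < 2048) (hj : j < 2048)
    (h : ψ (toSet (rp i)) = ψ (toSet (rp j))) : i = j := by
  have := (psi_eq S T (lab_aux hi).2.2.1 (lab_aux hj).2.2.1 (ev_rp hi) (ev_rp hj)).1 h
  rwa [(lab_aux hi).2.1, (lab_aux hj).2.1] at this

theorem chi_mul {i j : ℕ} (hi : i < 2048) (hj : j < 2048) :
    ψ (toSet (rp (i ^^^ j))) = ψ (toSet (rp i)) * ψ (toSet (rp j)) := by
  have h := psi_cw S T (xor_lt (lab_aux hi).2.2.1 (lab_aux hj).2.2.1) (ev_xor (ev_rp hi) (ev_rp hj))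
  rw [toSet_xor, T.add _ _ (ev_rp hi) (ev_rp hj)] at h
  have e := cw_xor (lab_aux hi).2.2.1 (lab_aux hj).2.2.1
  rw [(lab_aux hi).2.1, (lab_aux hj).2.1] at e
  rw [h, ← e]
  rfl

theorem conj_cact {n : NN V} {p j : ℕ} (hp : inM p = true) (e : ρ n = toM p) (hj : j < 2048) :
    n * ψ (toSet (rp j)) * (n : G)⁻¹ = ψ (toSet (rp (cact p j))) := by
  rw [T.act n _ (ev_rp hj), e, toM_smul_toSet hp]
  refine psi_cw S T (img_lt (inM_isPerm hp) _) ?_
  rw [← toM_smul_toSet hp, Finset.card_smul_finset]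
  exact ev_rp hj

theorem conj_ca {n : NN V} {p j : ℕ} (hp : inM p = true) (e : ρ n = toM p) (hj : j < 2048) :
    n * ψ (toSet (rp j)) * (n : G)⁻¹ = ψ (toSet (rp (ca p j))) := by
  have z : ψ (toSet (rp 0)) = 1 := by
    have := chi_mul S T (i := 0) (j := 0) (by norm_num) (by norm_num)
    rwa [Nat.xor_self, left_eq_mul] at this
  have h := xorC_induction
    (fun a => a < 2048 ∧ n * ψ (toSet (rp a)) * (n : G)⁻¹ = ψ (toSet (rp (ca p a))))
    ⟨by norm_num, by rw [ca_eq, mv_zero, z, mul_one, mul_inv_cancel]⟩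
    (fun a b ha hb => ⟨xor_lt11 ha.1 hb.1, by
      rw [ca_xor p ha.1 hb.1, chi_mul S T ha.1 hb.1, chi_mul S T (ca_lt p ha.1) (ca_lt p hb.1),
        ← ha.2, ← hb.2, conj_mul]⟩)
    (fun i => 2 ^ i) j 11 fun i hi => by
      have l : 2 ^ i < 2048 := Nat.pow_lt_pow_right (n := 11) (by norm_num) hi
      refine ⟨l, ?_⟩
      rw [ca_eq, mv_two_pow _ (by omega), fld_cm _ hi, conj_cact S T hp e l,
        show 2047 = 2 ^ 11 - 1 from rfl, Nat.and_two_pow_sub_one_eq_mod,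
        Nat.mod_eq_of_lt (cact_lt hp _)]
  rw [xorC_pow_self (k := 11) hj] at h
  exact h.2

theorem core [Finite G] {A : Subgroup G} (hA : A ≤ NN V) (sq : ∀ a ∈ A, a * a = 1)
    (hc : Nat.card A = 2 ^ 11) (hP : ∀ a : A, ρ (inclusion hA a) ∈ P24) : A = V := by
  classical
  let f : A →* M24 := ρ.comp (inclusion hA)
  let U : Finset ℕ := (Finset.range 2048).filter fun j => ψ (toSet (rp j)) ∈ A
  have hU : ∀ j, j ∈ U ↔ j < 2048 ∧ ψ (toSet (rp j)) ∈ A := fun j => by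
    simp only [U, Finset.mem_filter, Finset.mem_range]
  have h0 : f.range = ⊥ := by
    refine bound (by rintro _ ⟨a, rfl⟩; exact hP a) ?_ U (fun j hj => ((hU j).1 hj).1) ?_ ?_
    · rintro _ ⟨a, rfl⟩
      rw [← map_mul, show a * a = 1 from Subtype.ext (sq a a.2), map_one]
    · rintro p hp ⟨a, e⟩ j hj
      obtain ⟨h1, h2⟩ := (hU j).1 hj
      have := conj_ca S T (n := inclusion hA a) hp e h1
      rw [coe_inclusion, comm_of_sq sq a.2 h2, mul_inv_cancel_right] at this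
      exact (chi_inj S T h1 (ca_lt p h1) this).symm
    · have h1 := f.ker.card_mul_index
      rw [index_ker, hc] at h1
      rw [show 2048 = 2 ^ 11 from rfl, ← h1, mul_comm]
      refine Nat.mul_le_mul_left _ ?_
      rw [← SetLike.coe_sort_coe, Nat.card_coe_set_eq, ← Set.ncard_coe_finset,
        ← Set.ncard_image_of_injective _ A.subtype_injective]
      refine (Set.ncard_le_ncard (t := (fun j => ψ (toSet (rp j))) '' (U : Set ℕ)) ?_
        (Set.toFinite _)).trans (Set.ncard_image_le (Set.toFinite _))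
      rintro _ ⟨x, hx, rfl⟩
      obtain ⟨c, hc, e⟩ := T.sur _ ((S.ker (inclusion hA x)).1 hx)
      have e' := psi_cw S T (mask_lt c) (by rwa [toSet_mask])
      rw [toSet_mask, e, coe_inclusion] at e'
      exact ⟨_, (hU _).2 ⟨cw_lt (mask_lt c), e' ▸ x.2⟩, e'.symm⟩
  refine eq_of_le_of_card_ge (fun a ha => ?_) (by rw [hc, S.card])
  exact (S.ker (inclusion hA ⟨a, ha⟩)).1 (mem_bot.1 (h0 ▸ ⟨⟨a, ha⟩, rfl⟩ : f ⟨a, ha⟩ ∈ ⊥))

omit S T in
theorem wcT : WcTStmt.{u} := by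
  intro G _ _ V ρ ψ S T g hA
  have sq := sq_cj S.el g
  haveI : Fact (Nat.Prime 2) := ⟨Nat.prime_two⟩
  obtain ⟨k, -, hk⟩ := exists_conj_le_of_isPGroup (p := 2) (a := 10) ⊤ P24
    (ρ.comp (inclusion hA)).range le_top card_P24 (by rw [card_top, card_M24]; norm_num) le_top
    ((pg_of_sq sq).of_surjective _ (MonoidHom.rangeRestrict_surjective _))
  obtain ⟨n, rfl⟩ := S.sur k
  have hn : cj (n : G) V = V := mem_norm_iff.1 n.2
  have hB : cj (n : G) (cj g V) ≤ NN V := by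
    have := cj_mono (n : G) hA
    rwa [cj_norm, hn] at this
  have h := core S T hB (sq_cj sq _) (by rw [card_cj, card_cj, S.card]) fun a => by
    have := hk _ ⟨⟨_, mem_cj.1 a.2⟩, rfl⟩
    rw [MonoidHom.comp_apply, ← map_inv, ← map_mul, ← map_mul] at this
    convert this using 2
    ext
    simp [mul_assoc]
  have := congrArg (cj (n : G)⁻¹) (h.trans hn.symm)
  rwa [cj_cj, cj_cj, cj_cj, inv_mul_cancel, one_mul, cj_one] at this

end Cfsg.Agent.H23.RfWcT
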