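import Cfsg.Agent.H18.RfSc
import Cfsg.Agent.H49.XSDual

/-!
# Extremal pairs of extraspecial groups: the transvection case
-/

set_option autoImplicit false

namespace Cfsg.Agent.H23.RfXsI

open Cfsg Subgroup Cfsg.Agent.H18.MaxOff Cfsg.Agent.H18.Rf
open Cfsg.Agent.H49 (XS csign csign_eq_one)

universe u

theorem card_le_of_det {α β γ : Type*} [Finite γ] (f : α → β) (g : α → γ)
    (hf : Function.Surjective f) (h : ∀ a b, g a = g b → f a = f b) : Nat.card β ≤ Nat.card γ :=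
  Nat.card_le_card_of_injective (fun b => g (Function.surjInv hf b)) fun b b' hb => by
    have := h _ _ hb
    rwa [Function.surjInv_eq hf, Function.surjInv_eq hf] at this

variable {G : Type u} [Group G]

theorem idx [Finite G] (K H K' H' : Subgroup G) (f : G → G) (hf : ∀ a ∈ H, f a ∈ H')
    (h : ∀ a ∈ H, ∀ b ∈ H, (f a)⁻¹ * f b ∈ K' → a⁻¹ * b ∈ K) :
    K.relIndex H ≤ K'.relIndex H' ∧
      (K'.relIndex H' ≤ K.relIndex H → ∀ x ∈ H', ∃ a ∈ H, (f a)⁻¹ * x ∈ K') := by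
  let g : H → H' ⧸ K'.subgroupOf H' := fun a => QuotientGroup.mk ⟨f a, hf a a.2⟩
  have h1 : K.relIndex H ≤ (Set.range g).ncard :=
    card_le_of_det (γ := Set.range g) (QuotientGroup.mk : H → H ⧸ K.subgroupOf H)
      (fun a => ⟨g a, a, rfl⟩) QuotientGroup.mk_surjective fun a b hab =>
        QuotientGroup.eq.2 (h a a.2 b b.2 (mem_subgroupOf.1 (QuotientGroup.eq.1 (show g a = g b from congrArg Subtype.val hab))))
  refine ⟨h1.trans (Set.ncard_le_card _), fun h2 x hx => ?_⟩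
  have h3 : Set.range g = Set.univ :=
    Set.eq_of_subset_of_ncard_le (Set.subset_univ _) (by rw [Set.ncard_univ]; exact h2.trans h1)
  obtain ⟨a, ha⟩ : QuotientGroup.mk (⟨x, hx⟩ : H') ∈ Set.range g := h3 ▸ Set.mem_univ _
  exact ⟨a, a.2, mem_subgroupOf.1 (QuotientGroup.eq.1 ha)⟩

theorem card_rel [Finite G] {K H : Subgroup G} (h : K ≤ H) :
    Nat.card K * K.relIndex H = Nat.card H := by
  have := H49.XS.card_mul_relIndex' K H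
  rwa [inf_eq_right.2 h] at this

variable {Q : Subgroup G} {z : G}

theorem adj (h : XS Q z) {u x y : G} (hu : u ∈ Q) (hx : x ∈ Q) (hy : y ∈ NN Q) :
    csign (u * y * u⁻¹ * y⁻¹) x = csign u (x * y⁻¹ * x⁻¹ * y⁻¹⁻¹) := by
  have h1 : y * u⁻¹ * y⁻¹ ∈ Q := (mem_normalizer_iff.1 hy _).1 (inv_mem hu)
  have h2 : y⁻¹ * x⁻¹ * y⁻¹⁻¹ ∈ Q := (mem_normalizer_iff.1 (inv_mem hy) _).1 (inv_mem hx)
  rw [show u * y * u⁻¹ * y⁻¹ = u * (y * u⁻¹ * y⁻¹) by group,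
    show x * y⁻¹ * x⁻¹ * y⁻¹⁻¹ = x * (y⁻¹ * x⁻¹ * y⁻¹⁻¹) by group, h.csign_mul_left hu h1 hx,
    h.csign_mul_right hx h2 hu]
  congr 1
  have : Commute (y * u⁻¹ * y⁻¹) x ↔ Commute u (y⁻¹ * x⁻¹ * y⁻¹⁻¹) := by
    rw [← Commute.conj_iff y⁻¹ (a := y * u⁻¹ * y⁻¹), ← Commute.inv_inv_iff (a := u)]
    exact iff_of_eq (by congr 1 <;> group)
  classical
  unfold csign
  exact if_congr this rfl rfl

theorem sq_iff (h : XS Q z) {t y : G} (ht : t ∈ Q) (hy : y ∈ NN Q) :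
    (t * y * t⁻¹ * y⁻¹) * (t * y * t⁻¹ * y⁻¹) = 1 ↔
      (t * y * t⁻¹ * y⁻¹) * t = t * (t * y * t⁻¹ * y⁻¹) := by
  have h1 : y * t⁻¹ * y⁻¹ ∈ Q := (mem_normalizer_iff.1 hy _).1 (inv_mem ht)
  have hz : z * y = y * z := mem_centralizer_singleton_iff.1 (h.normalizer_le hy) |>.symm
  have h2 : y * t⁻¹ * y⁻¹ * (y * t⁻¹ * y⁻¹) = (t * t)⁻¹ := by
    rw [show y * t⁻¹ * y⁻¹ * (y * t⁻¹ * y⁻¹) = y * (t * t)⁻¹ * y⁻¹ by group]
    rcases h.sq ht with e | e <;> rw [e]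
    · group
    · rw [h.inv_z, ← hz, mul_inv_cancel_right]
  rw [show t * y * t⁻¹ * y⁻¹ = t * (y * t⁻¹ * y⁻¹) by group]
  generalize y * t⁻¹ * y⁻¹ = w at h1 h2
  rw [mul_assoc t w t, mul_right_inj]
  constructor
  · intro e
    have : w * t = t⁻¹ * w⁻¹ := by
      rw [← mul_left_inj w, ← mul_right_inj t]
      simpa [mul_assoc] using e
    rw [this, eq_comm, ← mul_left_inj w, ← mul_right_inj t, mul_assoc t w w, h2]
    group
  · intro e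
    rw [mul_assoc, ← mul_assoc w, e, mul_assoc t w w, h2]
    group

theorem xsI : XsIStmt.{u} := by
  intro G _ _ Q Q' z X Y C hn
  have h := C.xs
  obtain ⟨t₀, ht₀, ht₀X⟩ := SetLike.not_le_iff_exists.1 hn
  obtain ⟨y₁, hy₁, hy₁Q⟩ := SetLike.not_le_iff_exists.1 C.ny
  have hXQ : X ≤ Q := C.hX ▸ inf_le_left
  have hYN : Y ≤ NN Q := C.hY ▸ inf_le_right
  have hYQ : Y ≤ Q' := C.hY ▸ inf_le_left
  have hDX : Q ⊓ Y ≤ X := fun d hd => C.hX ▸ ⟨hd.1, le_normalizer (hYQ hd.2)⟩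
  have hzD : z ∈ Q ⊓ Y := ⟨h.mem, C.hY ▸ ⟨C.xs'.mem, le_normalizer h.mem⟩⟩
  have cD : ∀ x ∈ X, ∀ y ∈ Y, x * y * x⁻¹ * y⁻¹ ∈ Q ⊓ Y := fun x hx y hy =>
    ⟨hXQ (C.all x (hXQ hx) y hy), (C.xc x (hXQ hx)).1 hx y hy⟩
  have cP : ∀ t ∈ Q, ∀ y ∈ Y, ∀ U ≤ Q,
      (∀ x ∈ U, t * (x * y⁻¹ * x⁻¹ * y⁻¹⁻¹) = x * y⁻¹ * x⁻¹ * y⁻¹⁻¹ * t) →
      t * y * t⁻¹ * y⁻¹ ∈ Q ⊓ CC U := fun t ht y hy U hU k =>
    ⟨hXQ (C.all t ht y hy), fun x hx =>
      (csign_eq_one.1 ((adj h ht (hU hx) (hYN hy)).trans (csign_eq_one.2 (k x hx)))).symm⟩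
  have zc : ∀ t ∈ Q, ∀ w ∈ zpowers z, t * w = w * t := fun t ht w hw => by
    rcases h.mem_Z.1 hw with rfl | rfl
    · rw [mul_one, one_mul]
    · exact h.cen t ht
  have inj : ∀ t ∈ Q, t ∉ X → ∀ a ∈ Y, ∀ b ∈ Y,
      (t * a * t⁻¹ * a⁻¹)⁻¹ * (t * b * t⁻¹ * b⁻¹) ∈ Y → a⁻¹ * b ∈ Q ⊓ Y := fun t ht htX a ha b hb k => by
    have hab := mul_mem (inv_mem ha) hb
    refine ⟨C.inj t ht htX _ hab ?_, hab⟩
    have := mul_mem (mul_mem (inv_mem ha) k) ha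
    convert this using 1
    group
  have r1 : X.relIndex Q ≤ (Q ⊓ Y).relIndex X :=
    (idx X Q (Q ⊓ Y) X (fun t => t * y₁ * t⁻¹ * y₁⁻¹) (fun t ht => C.all t ht y₁ hy₁)
      fun a ha b hb k => by
        by_contra hab
        refine hy₁Q (C.inj _ (mul_mem (inv_mem ha) hb) hab y₁ hy₁ ?_)
        have := h.conj_mem_of_z_mem inf_le_left hzD
          ((mem_normalizer_iff.1 (hYN hy₁) _).1 (inv_mem ha)) k
        convert (mem_inf.1 this).2 using 1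
        group).1
  have r2 : (Q ⊓ Y).relIndex X = (Q ⊓ Y).relIndex Y :=
    Nat.eq_of_mul_eq_mul_left (Nat.card_pos (α := ↥(Q ⊓ Y)))
      (by rw [card_rel hDX, card_rel inf_le_right, C.card])
  have cardP : Nat.card ↥(Q ⊓ CC X) = 2 * X.relIndex Q := by
    have := h.card_mul_card_centralizer_of_mem hXQ (hDX hzD)
    rw [← card_rel hXQ, mul_left_comm] at this
    exact Nat.eq_of_mul_eq_mul_left Nat.card_pos this
  have t0P : ∀ y ∈ Y, t₀ * y * t₀⁻¹ * y⁻¹ ∈ Q ⊓ CC X := fun y hy =>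
    cP t₀ ht₀.1 y hy X hXQ fun x hx => (ht₀.2 _ (cD x hx _ (inv_mem hy))).symm
  have hZP : zpowers z ≤ Q ⊓ CC X := zpowers_le.2 (h.z_mem_inf_centralizer hXQ)
  have hDP : Q ⊓ Y ⊓ (Q ⊓ CC X) = zpowers z := by
    refine (eq_of_le_of_card_ge (le_inf (zpowers_le.2 hzD) hZP) ?_).symm
    have r3 := (idx (Q ⊓ Y) Y (Q ⊓ Y ⊓ (Q ⊓ CC X)) (Q ⊓ CC X) _ t0P fun a ha b hb k =>
      inj t₀ ht₀.1 ht₀X a ha b hb k.1.2).1
    have r4 := card_rel (K := Q ⊓ Y ⊓ (Q ⊓ CC X)) (H := Q ⊓ CC X) inf_le_right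
    have r5 : 0 < (Q ⊓ Y ⊓ (Q ⊓ CC X)).relIndex (Q ⊓ CC X) :=
      Nat.pos_of_mul_pos_left (r4 ▸ Nat.card_pos)
    rw [h.card_Z]
    refine Nat.le_of_mul_le_mul_right ?_ r5
    rw [r4, cardP]
    omega
  have cZ : ∀ x ∈ X, ∀ y ∈ Y, x * y * x⁻¹ * y⁻¹ ∈ zpowers z := fun x hx y hy => by
    have k := cP x (hXQ hx) y hy (Q ⊓ Y) inf_le_left fun d hd =>
      zc x (hXQ hx) _ (C.xs'.commutator_mem (hYQ hd.2) (hYQ (inv_mem hy)))
    refine hDP ▸ ⟨cD x hx y hy, k.1, fun w hw => ?_⟩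
    obtain ⟨a, ha, e⟩ := (idx (Q ⊓ Y) Y (Q ⊓ Y) X _ (fun y hy => C.all t₀ ht₀.1 y hy)
      fun a ha b hb k => inj t₀ ht₀.1 ht₀X a ha b hb k.2).2 r2.le w hw
    have e1 : Commute _ _ := k.2 _ e
    have e2 : Commute _ _ := ((t0P a ha).2 _ (hDX (cD x hx y hy))).symm
    have := e2.mul_left e1
    rwa [mul_inv_cancel_left] at this
  have key : ∀ t ∈ Q, t ∉ X → ∀ x ∈ Q ⊓ CC X, (x * x = 1 ↔ x * t = t * x) := fun t ht htX x hx => by
    have tP : ∀ y ∈ Y, t * y * t⁻¹ * y⁻¹ ∈ Q ⊓ CC X := fun y hy =>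
      cP t ht y hy X hXQ fun x hx => zc t ht _ (cZ x hx _ (inv_mem hy))
    have r4 := card_rel hZP
    rw [cardP, h.card_Z] at r4
    obtain ⟨a, ha, e⟩ := (idx (Q ⊓ Y) Y (zpowers z) (Q ⊓ CC X) _ tP fun a ha b hb k =>
      inj t ht htX a ha b hb (zpowers_le.2 hzD.2 k)).2 (by omega) x hx
    have k := sq_iff h ht (hYN ha)
    have hc := (tP a ha).1
    generalize t * a * t⁻¹ * a⁻¹ = c at e k hc
    rcases h.mem_Z.1 e with e | e
    · rwa [← inv_mul_eq_one.1 e]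
    · rw [eq_mul_of_inv_mul_eq e, mul_assoc, ← mul_assoc z, ← h.cen c hc, mul_assoc c z z, h.zz,
        mul_one, mul_assoc, ← h.cen t ht, ← mul_assoc, ← mul_assoc, mul_left_inj]
      exact k
  refine ⟨y₁, hy₁, hy₁Q, ?_⟩
  have hC : X ≤ Q ⊓ CM {y₁} (zpowers z) := fun x hx =>
    ⟨hXQ hx, mem_CM.2 ⟨mem_norm_of_le fun w hw => by rwa [zc x (hXQ hx) w hw, mul_inv_cancel_right],
      by rintro _ rfl; exact cZ x hx _ hy₁⟩⟩
  refine le_trans ?_ (Nat.mul_le_mul_left _ (card_le_of_le hC))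
  have two : ∀ s ∈ Q, s ∉ X → t₀ * s ∈ X := fun s hs hsX => by
    rw [← h.centralizer_centralizer hXQ (hDX hzD)]
    refine ⟨mul_mem ht₀.1 hs, fun x hx => ?_⟩
    have k := (key t₀ ht₀.1 ht₀X x hx).symm.trans (key s hs hsX x hx)
    by_cases e : x * s = s * x
    · exact (show Commute x t₀ from k.2 e).mul_right e
    · exact (h.mul_comm_of_ne_of_ne ht₀.1 hs hx.1 (fun e' => e (k.1 e'.symm))
        fun e' => e e'.symm).symm
  rw [← SetLike.coe_sort_coe, ← SetLike.coe_sort_coe X, Nat.card_coe_set_eq, Nat.card_coe_set_eq,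
    two_mul]
  refine (Set.ncard_le_ncard (t := (X : Set G) ∪ (fun x => t₀⁻¹ * x) '' X) (fun s hs => ?_)
    (Set.toFinite _)).trans ((Set.ncard_union_le _ _).trans
      (Nat.add_le_add_left (Set.ncard_image_le (Set.toFinite _)) _))
  by_cases e : s ∈ X
  · exact Or.inl e
  · exact Or.inr ⟨_, two s hs e, inv_mul_cancel_left _ _⟩

end Cfsg.Agent.H23.RfXsI
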