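import Cfsg.Agent.H41.S6Kit2

/-! Project SP6, piece D2. -/

set_option autoImplicit false
set_option maxRecDepth 100000
set_option synthInstance.maxSize 4096

namespace Cfsg.Agent.H23.S6D

open Cfsg Subgroup
open Cfsg.Agent.H44 Cfsg.Agent.H55.Sp6 Cfsg.Agent.H2.L3E Cfsg.Agent.H41.S6

universe u

theorem key {a : Sp} (ha : a ∈ V0) (h : rho * a * rho⁻¹ = a) :
    a * (a23 * a * a23⁻¹)⁻¹ ∈ V0 ∧
      r32 * (a * (a23 * a * a23⁻¹)⁻¹) * r32⁻¹ = a * (a23 * a * a23⁻¹)⁻¹ := by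
  have k : ∀ x < 64, bf 1 x = 0 → ∀ c : Bool,
      cols (wd ([4, 32] ++ wV x c)) = cols (wd (wV x c ++ [4, 32])) → ∃ y ∈ [0, 4], ∃ d : Bool,
        bf 1 y = 0 ∧ cols (wd ([4, 16, 20] ++ wV y d)) = cols (wd (wV y d ++ [4, 16, 20])) ∧
        cols (wd (wV x c ++ [2, 4, 6])) = cols (wd (wV y d ++ ([2, 4, 6] ++ wV x c))) := by
    decide +kernel
  obtain ⟨x, hx, c, hb, rfl⟩ := param_V0 ha
  rw [mul_inv_eq_iff_eq_mul, rho, ← ev_append, ← ev_append,
    ev_eq_iff (append_lt (by simp) (wV_lt hx c)) (append_lt (wV_lt hx c) (by simp))] at h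
  obtain ⟨y, hy, d, h1, h2, h3⟩ := k x hx hb c h
  have y64 : y < 64 := by
    simp only [List.mem_cons, List.not_mem_nil, or_false] at hy
    omega
  rw [← ev_eq_iff (append_lt (by simp) (wV_lt y64 d)) (append_lt (wV_lt y64 d) (by simp)),
    ev_append, ev_append] at h2
  rw [← ev_eq_iff (append_lt (wV_lt hx c) (by simp))
    (append_lt (wV_lt y64 d) (append_lt (by simp) (wV_lt hx c))), ev_append, ev_append,
    ev_append] at h3
  have e : ev g (wV x c) * (a23 * ev g (wV x c) * a23⁻¹)⁻¹ = ev g (wV y d) := by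
    rw [mul_inv_rev, inv_inv, ← mul_assoc, mul_inv_eq_iff_eq_mul]
    exact h3
  rw [e, mul_inv_eq_iff_eq_mul]
  exact ⟨wV_mem y64 h1 d, h2⟩

variable {G : Type u} [Group G] {ι : Sp →* G} {t : G} {w : ℕ → G}

/-- `r v = w v * w (v + e₁)` -/
def rr (w : ℕ → G) (v : ℕ) : G := w v * w (v ^^^ 1)

theorem rr_cj (W : Wv ι t w true false) {l : Sp} (hl : l ∈ P1) {v : ℕ} (hv : v < 64) :
    ι l * rr w v * (ι l)⁻¹ = rr w (act l v) := by
  rw [rr, ← conj_mul, W.eqv l v hv, W.eqv l _ (xor_lt hv (by omega)), act_xor l hv (by omega),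
    mem_P1.1 hl, rr]

theorem cm (W : Wv ι t w true false) {u v : ℕ} (hu : u < 64) (hv : v < 64) (h : bf u v = 0) :
    Commute (w u) (w v) := by simpa [commute_iff_eq] using W.cm u hu v hv h

theorem cm1 (W : Wv ι t w true false) {v : ℕ} (hv : v < 64) (h : bf 1 v = 0) :
    Commute (w v) (w (v ^^^ 1)) := by
  have : ∀ v < 64, bf 1 v = 0 → bf v (v ^^^ 1) = 0 := by decide +kernel
  exact cm W hv (xor_lt hv (by omega)) (this v hv h)

theorem rr_V (W : Wv ι t w true false) {v : ℕ} (hv : v < 64) (h : bf 1 v = 0) (h2 : 2 ≤ v) {a : Sp}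
    (ha : a ∈ V0) : Commute (rr w v) (ι a) := by
  have k : ∀ v < 64, bf 1 v = 0 → 2 ≤ v → ∀ y < 64, lw y = lw v → y = v ∨ y = v ^^^ 1 := by
    decide +kernel
  have := rr_cj W (V0_le_P1 ha) hv
  rw [mul_inv_eq_iff_eq_mul] at this
  rcases k v hv h h2 _ (act_lt a v) (ha v hv) with e | e <;> rw [e] at this
  · exact this.symm
  · rw [rr, rr, Nat.xor_assoc, Nat.xor_self, Nat.xor_zero, ← (cm1 W hv h).eq] at this
    exact this.symm

theorem rr_sq (W : Wv ι t w true false) {v : ℕ} (hv : v < 64) (h : bf 1 v = 0) :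
    rr w v * rr w v = ι (ev g (wV v false)) := by
  rw [rr, ← (cm1 W hv h).mul_mul_mul_comm, W.sq v hv, W.sq _ (xor_lt hv (by omega)), ← map_mul,
    if_pos rfl, if_pos rfl, g_eq, g_eq, ← ev_append]
  rfl

theorem rr_t (W : Wv ι t w true false) {v : ℕ} (hv : v < 64) (h : bf 1 v = 0) :
    rr w v * t * (rr w v)⁻¹ = t * ι (ev g (wV v false)) := by
  have h1 := W.sq _ (xor_lt hv (by omega : 1 < 64))
  rw [if_pos rfl] at h1
  calc rr w v * t * (rr w v)⁻¹ = w v * (w (v ^^^ 1) * t * (w (v ^^^ 1))⁻¹) * (w v)⁻¹ := by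
        rw [rr]; group
    _ = _ := by
      rw [W.tr _ (xor_lt hv (by omega)), ← conj_mul, W.tr v hv, ← h1,
        ((cm1 W hv h).mul_right (cm1 W hv h)).eq, mul_inv_cancel_right, h1, mul_assoc, ← map_mul,
        g_eq, g_eq, ← ev_append]
      rfl

/-- **D2** -/
theorem d2 : D2Stmt.{u} := by
  intro _ G _ _ ι t h w W
  have V : ∀ v ∈ [2, 16, 18, 6], ∀ a ∈ V0, Commute (rr w v) (ι a) := fun v hv a ha => by
    have : ∀ v ∈ [2, 16, 18, 6], v < 64 ∧ bf 1 v = 0 ∧ 2 ≤ v := by decide +kernel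
    exact rr_V W (this v hv).1 (this v hv).2.1 (this v hv).2.2 ha
  have V2 := V 2 (by simp)
  have V16 := V 16 (by simp)
  have V18 := V 18 (by simp)
  have V6 := V 6 (by simp)
  have m16 := wV_mem (x := 16) (by omega) (by decide +kernel) false
  have m18 := wV_mem (x := 18) (by omega) (by decide +kernel) false
  have hτ : rr w 2 * rr w 16 * rr w 18 ∈ E1 ι t := by
    refine h.cen_E1 ?_ fun a ha => (((V2 a ha).mul_left (V16 a ha)).mul_left (V18 a ha)).eq
    rw [← mul_inv_eq_iff_eq_mul]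
    calc rr w 2 * rr w 16 * rr w 18 * t * (rr w 2 * rr w 16 * rr w 18)⁻¹ =
          rr w 2 * (rr w 16 * (rr w 18 * t * (rr w 18)⁻¹) * (rr w 16)⁻¹) * (rr w 2)⁻¹ := by group
      _ = t := by
        rw [rr_t W (by omega) (by decide +kernel), ← conj_mul (a := t),
          rr_t W (by omega) (by decide +kernel),
          (V16 _ m18).eq, mul_inv_cancel_right, mul_assoc t, ← map_mul, ← conj_mul,
          rr_t W (by omega) (by decide +kernel), (V2 _ (mul_mem m16 m18)).eq, mul_inv_cancel_right,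
          mul_assoc t, ← map_mul, ← ev_append, ← ev_append, weq (l' := []) (by decide +kernel),
          ev_nil, map_one, mul_one]
  have cj : ∀ {l : List ℕ}, (l.all (· < 64) && wd l 1 == 1) = true → ∀ a b c, a < 64 → b < 64 →
      c < 64 → ι (ev g l) * (rr w a * rr w b * rr w c) * (ι (ev g l))⁻¹ =
        rr w (wd l a) * rr w (wd l b) * rr w (wd l c) := fun {l} hl a b c ha hb hc => by
    have h1 := ev_mem_P1 hl
    simp only [Bool.and_eq_true, List.all_eq_true, decide_eq_true_eq] at hl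
    rw [← conj_mul, ← conj_mul, rr_cj W h1 ha, rr_cj W h1 hb, rr_cj W h1 hc, act_wd hl.1 ha,
      act_wd hl.1 hb, act_wd hl.1 hc]
  have e0 : ι rho * (rr w 2 * rr w 16 * rr w 18) * (ι rho)⁻¹ = rr w 2 * rr w 16 * rr w 18 :=
    cj (l := [4, 32]) (by decide +kernel) 2 16 18 (by omega) (by omega) (by omega)
  have e1 : ι a23 * (rr w 2 * rr w 16 * rr w 18) * (ι a23)⁻¹ = rr w 2 * rr w 20 * rr w 22 :=
    cj (l := [2, 4, 6]) (by decide +kernel) 2 16 18 (by omega) (by omega) (by omega)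
  have e2 : ι r32 * (rr w 2 * rr w 16 * rr w 18) * (ι r32)⁻¹ = rr w 6 * rr w 16 * rr w 22 :=
    cj (l := [4, 16, 20]) (by decide +kernel) 2 16 18 (by omega) (by omega) (by omega)
  have e3 : ι r32 * (rr w 2 * rr w 20 * rr w 22) * (ι r32)⁻¹ = rr w 6 * rr w 20 * rr w 18 :=
    cj (l := [4, 16, 20]) (by decide +kernel) 2 20 22 (by omega) (by omega) (by omega)
  obtain ⟨δ, hδ, d1, d2⟩ : ∃ δ ∈ V0, r32 * δ * r32⁻¹ = δ ∧
      rr w 2 * rr w 16 * rr w 18 * (rr w 2 * rr w 20 * rr w 22)⁻¹ = ι δ := by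
    obtain ⟨a, ha, e | e⟩ := h.mem_E1.1 hτ <;> rw [← e1, e] <;> rw [e] at e0
    · rw [← map_inv, ← map_mul, ← map_mul] at e0
      exact ⟨_, (key ha (h.inj e0)).1, (key ha (h.inj e0)).2, by simp⟩
    · rw [h.conj_tl, mul_right_inj] at e0
      refine ⟨_, (key ha (h.inj e0)).1, (key ha (h.inj e0)).2, ?_⟩
      rw [h.conj_tl, h.ct, h.ct, mul_inv_rev, mul_assoc, mul_inv_cancel_left, ← map_inv, ← map_mul]
  have d3 : rr w 6 * rr w 16 * rr w 22 * (rr w 6 * rr w 20 * rr w 18)⁻¹ = ι δ := by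
    rw [← e2, ← e3, conj_inv, conj_mul, d2, ← map_inv, ← map_mul, ← map_mul, d1]
  have f1 : rr w 16 * (rr w 18 * (rr w 22)⁻¹) * (rr w 20)⁻¹ = ι δ := by
    rw [← inv_mul_cancel_left (rr w 2) (ι δ), (V2 δ hδ).eq, ← d2]; group
  have f2 : rr w 16 * (rr w 22 * (rr w 18)⁻¹) * (rr w 20)⁻¹ = ι δ := by
    rw [← inv_mul_cancel_left (rr w 6) (ι δ), (V6 δ hδ).eq, ← d3]; group
  have c : Commute (rr w 18) (rr w 22) := by
    have c1 := cm W (u := 18) (v := 22) (by omega) (by omega) (by decide +kernel)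
    have c2 := cm W (u := 18) (v := 23) (by omega) (by omega) (by decide +kernel)
    have c3 := cm W (u := 19) (v := 22) (by omega) (by omega) (by decide +kernel)
    have c4 := cm W (u := 19) (v := 23) (by omega) (by omega) (by decide +kernel)
    exact (c1.mul_right c2).mul_left (c3.mul_right c4)
  rw [← f1, mul_left_inj, mul_right_inj, mul_inv_eq_iff_eq_mul, mul_assoc, c.inv_right.symm.eq,
    ← mul_assoc, eq_mul_inv_iff_mul_eq, rr_sq W (by omega) (by decide +kernel),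
    rr_sq W (by omega) (by decide +kernel)] at f2
  exact wne (by decide +kernel) (h.inj f2)

end Cfsg.Agent.H23.S6D
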