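import Cfsg.Agent.H56.SpDefs
import Cfsg.Agent.H23.LpFact
import Cfsg.Agent.H28.PSL2Small

/-! Project CY, chapter SP: piece LF. -/

set_option autoImplicit false

namespace Cfsg.Agent.H23.SpLf

open Subgroup MulAction Cfsg.Agent.H11.Cy Cfsg.Agent.H56.Sp
open scoped MatrixGroups

section
variable {F : Type} [Field F]

theorem sq (h2 : (2 : F) ≠ 0) (X : SL(2, F)) (h : X * X = 1) : X = 1 ∨ X = -1 := by
  have d := X.det_coe
  rw [Matrix.det_fin_two] at d
  have e (i j) : (X.1 * X.1) i j = (1 : Matrix (Fin 2) (Fin 2) F) i j :=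
    congrFun (congrFun (congrArg Subtype.val h) i) j
  have e0 := e 0 0
  have e1 := e 0 1
  have e2 := e 1 0
  have e3 := e 1 1
  simp [Matrix.mul_apply, Fin.sum_univ_two] at e0 e1 e2 e3
  have t : X 0 0 + X 1 1 ≠ 0 := fun k => h2 (by linear_combination -d - e0 + X 0 0 * k)
  have b : X 0 1 = 0 := mul_left_cancel₀ t (by linear_combination e1)
  have c : X 1 0 = 0 := mul_left_cancel₀ t (by linear_combination e2)
  have a : X 1 1 = X 0 0 := mul_left_cancel₀ t (by linear_combination e3 - e0)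
  rw [b, zero_mul, add_zero] at e0
  rcases mul_self_eq_one_iff.1 e0 with k | k
  · left; ext i j; fin_cases i <;> fin_cases j <;> simp [a, b, c, k]
  · right; ext i j; fin_cases i <;> fin_cases j <;> simp [a, b, c, k]

theorem ne (h2 : (2 : F) ≠ 0) : (-1 : SL(2, F)) ≠ 1 := fun e => h2 (by
  have : (-1 : F) = 1 := by simpa using congrFun (congrFun (congrArg Subtype.val e) 0) 0
  linear_combination -this)

theorem csq (X : SL(2, F)) (h : X ∈ center SL(2, F)) : X * X = 1 := by
  obtain ⟨b, c, a⟩ := (LpFact.cen X).1 h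
  have d := X.det_coe
  rw [Matrix.det_fin_two, b, c, ← a] at d
  refine Subtype.ext (show X.1 * X.1 = 1 from ?_)
  ext i j; fin_cases i <;> fin_cases j <;>
    simp [Matrix.mul_apply, Fin.sum_univ_two, b, c, ← a] <;> linear_combination d

theorem q8 {s t : F} (h : s ^ 2 + t ^ 2 = -1) :
    ∃ a b : SL(2, F), a * a = -1 ∧ b * b = -1 ∧ a * b * a = b := by
  refine ⟨⟨!![0, -1; 1, 0], by simp [Matrix.det_fin_two]⟩, ⟨!![s, t; t, -s], by
    rw [Matrix.det_fin_two_of]; linear_combination -h⟩, Subtype.ext ?_, Subtype.ext ?_,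
    Subtype.ext ?_⟩
  · show !![0, -1; 1, 0] * !![0, -1; 1, 0] = -(1 : Matrix (Fin 2) (Fin 2) F)
    ext i j; fin_cases i <;> fin_cases j <;> simp
  · show !![s, t; t, -s] * !![s, t; t, -s] = -(1 : Matrix (Fin 2) (Fin 2) F)
    ext i j; fin_cases i <;> fin_cases j <;> simp <;>
      first | linear_combination h | ring
  · show !![0, -1; 1, 0] * !![s, t; t, -s] * !![0, -1; 1, 0] = !![s, t; t, -s]
    ext i j; fin_cases i <;> fin_cases j <;> simp

end

theorem lf : LfStmt := by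
  intro G _ _ Ω _ _ p A h p2 ep ty x y hxy
  obtain ⟨⟨F, _, _, hF, ⟨e⟩⟩, ln⟩ := ty x y hxy
  haveI : Fact p.Prime := ⟨h.pp⟩
  haveI : CharP F p := charP_of_card_eq_prime hF
  have h2 : (2 : F) ≠ 0 := fun k => p2 ((Nat.prime_dvd_prime_iff_eq h.pp Nat.prime_two).1
    ((CharP.cast_eq_zero_iff F p 2).1 (by exact_mod_cast k)))
  have z1 : ∀ z (hz : IsZ A x y z), e ⟨z, hz.1⟩ = -1 := fun z hz =>
    (sq h2 _ (by rw [← map_mul, ← map_one e]; exact congrArg e (Subtype.ext hz.2.2))).resolve_left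
      fun k => hz.2.1 (congrArg Subtype.val ((map_eq_one_iff e e.injective).1 k))
  have inv : ∀ g ∈ Fl A x y, ∀ c ∈ Ln A x y, g • c ∈ Ln A x y := fun g hg =>
    (ep.nrm x y hxy g).1 (le_normalizer hg)
  have t1 : ∀ c ∈ Ln A x y, ∀ u ∈ Ln A x y, ∀ v ∈ Ln A x y, u ≠ c → v ≠ c →
      ∃ g ∈ Fl A x y, g • c = c ∧ g • u = v := fun c hc u hu v hv uc vc => by
    let f : A c → ↥(Ln A x y \ {c}) := fun a => ⟨a.1 • u, inv _ (hc a.2) u hu, fun k => uc (by
      have : a.1 • u = a.1 • c := k.trans (h.fix c _ a.2).symm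
      exact MulAction.injective _ this)⟩
    have fi : Function.Injective f := fun a b k => by
      have k' : a.1 • u = b.1 • u := congrArg Subtype.val k
      have := (h.semi c u _ (mul_mem (inv_mem b.2) a.2) (by
        rw [mul_smul, k', inv_smul_smul])).resolve_right uc
      exact Subtype.ext (inv_mul_eq_one.1 this).symm
    obtain ⟨a, ha⟩ := (fi.bijective_of_nat_card_le (by
      rw [h.card, Nat.card_coe_set_eq, Set.ncard_diff_singleton_of_mem hc, ln]; rfl)).2 ⟨v, hv, vc⟩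
    exact ⟨a, hc a.2, h.fix c _ a.2, congrArg Subtype.val ha⟩
  refine ⟨⟨e.symm (-1), (e.symm (-1)).2, fun k => ne h2 ((map_eq_one_iff _ e.symm.injective).1
      (Subtype.ext k)), ?_⟩, fun z z' hz hz' => congrArg Subtype.val
      (e.injective ((z1 z hz).trans (z1 z' hz').symm)), fun z hz g hg => ?_, fun g hg k => ?_, ?_, ln,
      ⟨(le_sup_left : A x ≤ _), (le_sup_right : A y ≤ _)⟩, ?_, fun z hz => ?_⟩
  · rw [← coe_mul, ← map_mul, neg_mul_neg, one_mul, map_one, coe_one]
  · have : e (⟨g, hg⟩ * ⟨z, hz.1⟩) = e (⟨z, hz.1⟩ * ⟨g, hg⟩) := by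
      rw [map_mul, map_mul, z1 z hz, mul_neg, neg_mul, one_mul, mul_one]
    exact congrArg Subtype.val (e.injective this)
  · have := csq (e ⟨g, hg⟩) (mem_center_iff.2 fun b => by
      obtain ⟨b, rfl⟩ := e.surjective b
      rw [← map_mul, ← map_mul]
      exact congrArg e (Subtype.ext (k b b.2)))
    rw [← map_mul, map_eq_one_iff e e.injective] at this
    exact congrArg Subtype.val this
  · rw [Nat.card_congr e.toEquiv, H28.card_SL2 hF]
  · intro a ha b hb c hc d hd ab cd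
    obtain ⟨g, hg, ga⟩ : ∃ g ∈ Fl A x y, g • a = c := by
      by_cases k : a = c
      · exact ⟨1, one_mem _, by rw [one_smul, k]⟩
      obtain ⟨w, hw, w1⟩ : ∃ w ∈ Ln A x y, w ∉ ({a, c} : Set Ω) := by
        by_contra! l
        have := Set.ncard_le_ncard (show Ln A x y ⊆ {a, c} from l) (Set.toFinite _)
        have := Set.ncard_insert_le a ({c} : Set Ω)
        rw [Set.ncard_singleton] at this
        have := h.pp.two_le
        omega
      obtain ⟨g, hg, -, k⟩ := t1 w hw a ha c hc (fun k => w1 (.inl k.symm)) fun k => w1 (.inr k.symm)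
      exact ⟨g, hg, k⟩
    obtain ⟨k, hk, k1, k2⟩ := t1 c hc (g • b) (inv g hg b hb) d hd
      (fun l => ab (MulAction.injective g (ga.trans l.symm))) cd.symm
    exact ⟨k * g, mul_mem hk hg, by rw [mul_smul, ga, k1], by rw [mul_smul, k2]⟩
  · obtain ⟨s, t, st⟩ := CharP.sq_add_sq F p (-1)
    obtain ⟨a, b, h1, h3, h4⟩ := q8 (F := F) (s := s) (t := t) (by exact_mod_cast st)
    obtain ⟨a, rfl⟩ := e.surjective a
    obtain ⟨b, rfl⟩ := e.surjective b
    rw [← map_mul, ← z1 z hz] at h1 h3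
    rw [← map_mul, ← map_mul] at h4
    have h5 : a.1 * b.1 * a.1 = b.1 := congrArg Subtype.val (e.injective h4)
    refine ⟨a, a.2, b, b.2, congrArg Subtype.val (e.injective h1),
      congrArg Subtype.val (e.injective h3), ?_⟩
    rw [mul_inv_eq_iff_eq_mul, eq_inv_mul_iff_mul_eq, ← mul_assoc, h5]

end Cfsg.Agent.H23.SpLf
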