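import Mathlib
import Cfsg.Agent.H6.TIDefs
import Cfsg.Agent.H6.ZStar
import Cfsg.Agent.H63.BG1
import Cfsg.Agent.H3.Fitting
import Cfsg.Prelude.Def_CaseTheorems

/-!
Project TI, piece R1764: the reduction of S1764 to the main theorem.
-/

set_option autoImplicit false
set_option linter.dupNamespace false

namespace Cfsg.Agent.H23.TiR

open Cfsg Subgroup Cfsg.Agent.H6.TI
open Cfsg.Agent.H83 (cj)
open scoped Cfsg.Agent.H63 commutatorElement

universe u

local instance factTwoTiR : Fact (Nat.Prime 2) := ⟨Nat.prime_two⟩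

/-- The list of groups in the conclusion. -/
def Lst (Y : Type u) [Group Y] : Prop :=
  (∃ (F : Type) (_ : Field F) (_ : Fintype F) (n : ℕ), ringChar F = 2 ∧ 2 ≤ n ∧
      Nonempty (Y ≃* Matrix.ProjectiveSpecialLinearGroup (Fin n) F)) ∨
  Cfsg.Lie.IsoSuzuki Y ∨
  (∃ (F : Type) (_ : Field F) (_ : Fintype F) (m : ℕ), Fintype.card F = 4 ^ m ∧
      Nonempty (Y ≃* Cfsg.PSU 3 F (2 ^ m))) ∨
  (∃ k : ℕ, 6 ≤ k ∧ k ≤ 9 ∧ Nonempty (Y ≃* ↥(alternatingGroup (Fin k)))) ∨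
  Cfsg.Spor.IsoM22 Y ∨ Cfsg.Spor.IsoM23 Y ∨ Cfsg.Spor.IsoM24 Y

theorem lst_of_out {Y : Type u} [Group Y] {Ω : Set (Subgroup Y)} (h : Out Ω) : Lst Y := by
  rcases h.2 with ⟨-, h | h | h⟩ | h | h | ⟨h, -⟩ | h | h | h | h
  · obtain ⟨F, i1, i2, hc, -, e⟩ := h
    exact Or.inl ⟨F, i1, i2, 2, ringChar.eq F 2, le_rfl, e⟩
  · exact Or.inr (Or.inl h)
  · obtain ⟨F, i1, i2, q, hc, hq, -, e⟩ := h
    obtain ⟨n, -, hn⟩ := FiniteField.card F 2
    have hd : q ∣ 2 ^ (n : ℕ) := by rw [← hn, hq]; exact dvd_pow_self q two_ne_zero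
    obtain ⟨m, -, rfl⟩ := (Nat.dvd_prime_pow Nat.prime_two).1 hd
    refine Or.inr (Or.inr (Or.inl ⟨F, i1, i2, m, ?_, e⟩))
    rw [hq, ← pow_mul, mul_comm, pow_mul]
    norm_num
  · obtain ⟨F, i1, i2, n, hc, hn, e⟩ := h
    exact Or.inl ⟨F, i1, i2, n, ringChar.eq F 2, by omega, e⟩
  · exact Or.inr (Or.inr (Or.inr (Or.inl ⟨6, by omega, by omega, h⟩)))
  · exact Or.inr (Or.inr (Or.inr (Or.inl ⟨7, by omega, by omega, h⟩)))
  · exact Or.inr (Or.inr (Or.inr (Or.inl ⟨9, by omega, by omega, h⟩)))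
  · exact Or.inr (Or.inr (Or.inr (Or.inr (Or.inl h))))
  · exact Or.inr (Or.inr (Or.inr (Or.inr (Or.inr (Or.inl h)))))
  · exact Or.inr (Or.inr (Or.inr (Or.inr (Or.inr (Or.inr h)))))

section Quo

variable {G : Type u} [Group G] {H : Type u} [Group H] {Ω : Set (Subgroup G)}

theorem map_cj (f : G →* H) (g : G) (P : Subgroup G) :
    (cj g P).map f = cj (f g) (P.map f) := by
  unfold H83.cj
  rw [map_map, map_map]
  congr 1
  ext x
  simp

/-- The images of the points under a map whose kernel fixes every point. -/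
theorem quo (t : TI Ω) (b : BA Ω) (f : G →* H) (hf : Function.Surjective f)
    (hk : ∀ P ∈ Ω, f.ker ≤ N[P]) : TI ((fun P => P.map f) '' Ω) where
  sq := by
    rintro _ ⟨P, hP, rfl⟩ _ ⟨a, ha, rfl⟩
    rw [← map_mul, t.sq P hP a ha, map_one]
  conj := by
    rintro _ ⟨P, hP, rfl⟩ g
    obtain ⟨g, rfl⟩ := hf g
    exact ⟨_, t.conj P hP g, map_cj f g P⟩
  trans := by
    rintro _ ⟨P, hP, rfl⟩ _ ⟨Q, hQ, rfl⟩
    obtain ⟨g, rfl⟩ := t.trans P hP Q hQ
    exact ⟨f g, (map_cj f g P).symm⟩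
  ti := by
    rintro _ ⟨P, hP, rfl⟩ _ ⟨Q, hQ, rfl⟩ hne
    have hPQ : P ≠ Q := fun e => hne (by rw [e])
    rw [eq_bot_iff]
    rintro _ ⟨⟨a, ha, rfl⟩, ⟨p, hp, hap⟩⟩
    rw [mem_bot]
    by_cases h1 : a = 1
    · rw [h1, map_one]
    have k1 : a * p⁻¹ ∈ f.ker := by
      rw [MonoidHom.mem_ker, map_mul, map_inv, hap, mul_inv_cancel]
    have aN : a ∈ N[Q] := by
      have := mul_mem (hk Q hQ k1) (le_normalizer hp)
      simpa using this
    have pN : p⁻¹ ∈ N[P] := by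
      have := mul_mem (inv_mem (le_normalizer ha : a ∈ N[P])) (hk P hP k1)
      simpa using this
    have e : Ed Ω P Q := ⟨hP, hQ, hPQ, fun h => h1 (by
      have : a ∈ ax P Q := ⟨ha, aN⟩
      rwa [h, mem_bot] at this)⟩
    have hi : a ∈ ax P Q := ⟨ha, aN⟩
    have hj : p⁻¹ ∈ ax Q P := ⟨Q.inv_mem hp, pN⟩
    have := b.sub1 e (vv P Q ⊓ f.ker) inf_le_left
      (H83.le_norm_inf (b.vnorm e) (by rw [normalizer_eq_top]; exact le_top)) a hi p⁻¹ hj
      ⟨mul_mem (mem_sup_left hi) (mem_sup_right hj), k1⟩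
    exact this.2
  wc := by
    rintro _ ⟨P, hP, rfl⟩ _ ⟨Q, hQ, rfl⟩ hle
    have : P ≤ N[Q] := by
      intro x hx
      rw [← H83.cj_eq_self_iff]
      apply t.wc _ (t.conj Q hQ x) Q hQ
      rintro _ ⟨q, hq, rfl⟩
      obtain ⟨q', hq', e⟩ := H83.conj_mem hle (mem_map_of_mem f hx) (mem_map_of_mem f hq)
      have k1 : q'⁻¹ * (x * q * x⁻¹) ∈ f.ker := by
        rw [MonoidHom.mem_ker, map_mul, map_inv, e, map_mul, map_mul, map_inv, inv_mul_cancel]
      have := mul_mem (le_normalizer hq' : q' ∈ N[Q]) (hk Q hQ k1)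
      simpa using this
    simp only [t.wc P hP Q hQ this]

theorem quo_gen (f : G →* H) (hf : Function.Surjective f) (hg : sSup Ω = ⊤) :
    sSup ((fun P => P.map f) '' Ω) = ⊤ := by
  rw [eq_top_iff, ← map_top_of_surjective f hf, ← hg, map_le_iff_le_comap, sSup_le_iff]
  intro P hP
  rw [← map_le_iff_le_comap]
  exact le_sSup ⟨P, hP, rfl⟩

/-- A normal subgroup fixing all points and meeting them trivially is central. -/
theorem central (hg : sSup Ω = ⊤) (T : Subgroup G) [hT : T.Normal] (h1 : ∀ P ∈ Ω, T ≤ N[P])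
    (h2 : ∀ P ∈ Ω, ∀ a ∈ P, a ∈ T → a = 1) : T ≤ center G := by
  intro x hx
  have : sSup Ω ≤ C1[x] := by
    rw [sSup_le_iff]
    intro P hP a ha
    rw [mem_centralizer_singleton_iff]
    have m1 : x * a * x⁻¹ * a⁻¹ ∈ P := mul_mem (H83.conj_mem (h1 P hP) hx ha) (inv_mem ha)
    have m2 : x * a * x⁻¹ * a⁻¹ ∈ T := by
      have := mul_mem hx (hT.conj_mem _ (inv_mem hx) a)
      simpa [mul_assoc] using this
    have := h2 P hP _ m1 m2
    rw [mul_inv_eq_one, mul_inv_eq_iff_eq_mul] at this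
    exact this.symm
  rw [mem_center_iff]
  intro g
  have hg' : g ∈ C1[x] := this (hg ▸ mem_top g)
  exact mem_centralizer_singleton_iff.1 hg'

/-- The subgroup generated by the intersections of the points with `O_2`. -/
def n0 (Ω : Set (Subgroup G)) : Subgroup G := closure {x | x ∈ pCore 2 G ∧ ∃ P ∈ Ω, x ∈ P}

theorem n0_le : n0 Ω ≤ pCore 2 G := (closure_le _).2 fun _ h => h.1

theorem n0_normal (t : TI Ω) : (n0 Ω).Normal := by
  rw [← normalizer_eq_top_iff, eq_top_iff, n0, le_normalizer_closure_iff]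
  rintro g - x ⟨hx, P, hP, hxP⟩
  exact subset_closure ⟨(inferInstance : (pCore 2 G).Normal).conj_mem x hx g, cj g P,
    t.conj P hP g, H83.conj_mem_cj hxP⟩

theorem n0_comm (b : BA Ω) : ∀ x ∈ n0 Ω, ∀ y ∈ n0 Ω, x * y = y * x := by
  have key : ∀ x ∈ {x | x ∈ pCore 2 G ∧ ∃ P ∈ Ω, x ∈ P},
      ∀ y ∈ {x | x ∈ pCore 2 G ∧ ∃ P ∈ Ω, x ∈ P}, x * y = y * x := by
    rintro x ⟨hx, P, hP, hxP⟩ y ⟨hy, Q, hQ, hyQ⟩
    by_cases e : P = Q
    · subst e; exact b.mul_comm P hP x hxP y hyQ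
    · exact b.comm P hP Q hQ e x ⟨hxP, b.core Q hQ _ inferInstance (H3.pCore_isPGroup 2 G) hx⟩
        y ⟨hyQ, b.core P hP _ inferInstance (H3.pCore_isPGroup 2 G) hy⟩
  intro x hx y hy
  have h1 : n0 Ω ≤ centralizer {x | x ∈ pCore 2 G ∧ ∃ P ∈ Ω, x ∈ P} :=
    (closure_le _).2 fun x hx => mem_centralizer_iff.2 fun y hy => key y hy x hx
  have h2 : n0 Ω ≤ C1[y] := (closure_le _).2 fun z hz =>
    mem_centralizer_singleton_iff.2 (mem_centralizer_iff.1 (h1 hy) z hz)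
  exact mem_centralizer_singleton_iff.1 (h2 hx)

theorem n0_sq (t : TI Ω) (b : BA Ω) : ∀ x ∈ n0 Ω, x * x = 1 := by
  intro x hx
  induction hx using closure_induction with
  | mem x hx => obtain ⟨-, P, hP, hxP⟩ := hx; exact t.sq P hP x hxP
  | one => simp
  | mul x y hx hy ix iy =>
    calc x * y * (x * y) = x * (y * x) * y := by group
      _ = x * (x * y) * y := by rw [n0_comm b y hy x hx]
      _ = (x * x) * (y * y) := by group
      _ = 1 := by rw [ix, iy, mul_one]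
  | inv x hx ix => rw [← mul_inv_rev, ix, inv_one]

theorem n0_ea (t : TI Ω) (b : BA Ω) : IsElementaryAbelian 2 (n0 Ω) :=
  ⟨⟨⟨fun x y => Subtype.ext (n0_comm b x x.2 y y.2)⟩⟩, fun a ha => by rw [sq, n0_sq t b a ha]⟩

end Quo

/-- The conclusion for `X = S / N`. -/
def Con (X : Type u) [Group X] : Prop :=
  IsMulCommutative (X ⧸ oddCore X) ∨
    ∃ Z : Subgroup X, Z ≤ center X ∧ ∀ _ : Z.Normal, Lst (X ⧸ Z)

section Stage2

variable {X : Type u} [Group X] [Finite X] {Ω : Set (Subgroup X)}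

theorem small (t : TI Ω) (b : BA Ω) (hg : sSup Ω = ⊤) (hs : ∀ P ∈ Ω, Nat.card P < 4) :
    IsMulCommutative (X ⧸ oddCore X) := by
  have uq : ∀ P ∈ Ω, ∀ a ∈ P, ∀ c ∈ P, a ≠ 1 → c ≠ 1 → a = c := by
    intro P hP a ha c hc a1 c1
    obtain ⟨k, hk⟩ := (IsPGroup.iff_card).1 (b.two P hP)
    have h4 := hs P hP
    rw [hk] at h4
    have k2 : k < 2 := by
      by_contra hh
      have := Nat.pow_le_pow_right (n := 2) (by norm_num) (not_lt.1 hh)
      omega
    have hnt : Nontrivial P := ⟨⟨⟨a, ha⟩, 1, fun e => a1 (congrArg Subtype.val e)⟩⟩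
    have h1 : 1 < Nat.card P := Finite.one_lt_card
    have k1 : Nat.card P = 2 := by
      interval_cases k
      · omega
      · simpa using hk
    obtain ⟨y, -, hy⟩ := (Nat.card_eq_two_iff' (1 : P)).1 k1
    have e1 := hy ⟨a, ha⟩ fun e => a1 (congrArg Subtype.val e)
    have e2 := hy ⟨c, hc⟩ fun e => c1 (congrArg Subtype.val e)
    exact congrArg Subtype.val (e1.trans e2.symm)
  have iso : ∀ P ∈ Ω, ∀ a ∈ P, a ≠ 1 → IsIsolatedInvolution a := by
    intro P hP a ha a1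
    refine ⟨orderOf_eq_prime (by rw [sq, t.sq P hP a ha]) a1, fun g hc => ?_⟩
    have c1 : g * a * g⁻¹ ≠ 1 := fun e => a1 (by simpa using e)
    have hQ := t.conj P hP g
    have hm : g * a * g⁻¹ ∈ cj g P := H83.conj_mem_cj ha
    have hle : cj g P ≤ N[P] := by
      intro y hy
      by_cases y1 : y = 1
      · rw [y1]; exact one_mem _
      · rw [uq _ hQ y hy _ hm y1 c1]
        exact b.cent P hP a ha a1 _ hc.eq.symm
    rw [t.wc _ hQ P hP hle] at hm
    exact uq P hP _ hm a ha c1 a1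
  have : sSup Ω ≤ (center (X ⧸ oddCore X)).comap (QuotientGroup.mk' _) := by
    rw [sSup_le_iff]
    intro P hP a ha
    by_cases a1 : a = 1
    · rw [a1]; exact one_mem _
    rw [mem_comap, mem_center_iff]
    intro g
    obtain ⟨g, rfl⟩ := QuotientGroup.mk'_surjective _ g
    have h1 := H6.zstar X (iso P hP a ha a1) g
    have h2 : QuotientGroup.mk' (oddCore X) (a * g * a⁻¹ * g⁻¹) = 1 :=
      (QuotientGroup.eq_one_iff _).2 h1
    rw [map_mul, map_mul, map_mul, map_inv, map_inv, mul_inv_eq_one, mul_inv_eq_iff_eq_mul] at h2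
    exact h2.symm
  refine ⟨⟨fun x y => ?_⟩⟩
  obtain ⟨y, rfl⟩ := QuotientGroup.mk'_surjective _ y
  have hy := this (hg ▸ mem_top y)
  exact mem_center_iff.1 hy x

theorem big (hM : MainStmt.{u}) (t : TI Ω) (b : BA Ω) (hne : Ω.Nonempty) (hg : sSup Ω = ⊤)
    (h2 : ∀ P ∈ Ω, ∀ a ∈ P, a ∈ pCore 2 X → a = 1) (hs : ∀ P ∈ Ω, 4 ≤ Nat.card P) :
    Lst (X ⧸ center X) := by
  have c2 : pCore 2 X ≤ center X :=
    central hg _ (fun P hP => b.core P hP _ inferInstance (H3.pCore_isPGroup 2 X)) h2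
  have cop : ∀ P ∈ Ω, (Nat.card P).Coprime (Nat.card (pPrimeCore 2 X)) := by
    intro P hP
    obtain ⟨k, hk⟩ := (IsPGroup.iff_card).1 (b.two P hP)
    rw [hk]
    exact Nat.Coprime.pow_left k (H3.pPrimeCore_coprime 2 X).symm
  have co : pPrimeCore 2 X ≤ center X := by
    refine central hg _ (fun P hP => ?_) (fun P hP a ha ho => ?_)
    · refine H63.coprime_abelian_gen_cent1 (A := P)
        ⟨⟨fun x y => Subtype.ext (b.mul_comm P hP x x.2 y y.2)⟩⟩ (fun hc => ?_)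
        (by rw [normalizer_eq_top]; exact le_top) (cop P hP) fun a ha a1 g hgg => ?_
      · obtain ⟨g, hgen⟩ := hc.exists_generator
        have e1 : orderOf g = Nat.card P := orderOf_eq_card_of_forall_mem_zpowers hgen
        have e2 : orderOf g ∣ 2 := orderOf_dvd_of_pow_eq_one
          (Subtype.ext (by simpa [sq] using t.sq P hP g g.2))
        have := Nat.le_of_dvd (by norm_num) e2
        have := hs P hP
        omega
      · exact b.cent P hP a ha a1 g (mem_centralizer_singleton_iff.1 hgg.2)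
    · have := (Subgroup.disjoint_of_coprime_natCard (cop P hP)).eq_bot
      have h : a ∈ P ⊓ pPrimeCore 2 X := ⟨ha, ho⟩
      rwa [this, mem_bot] at h
  have pz : ∀ P ∈ Ω, ∀ a ∈ P, a ∈ center X → a = 1 := by
    intro P hP a ha hz
    apply h2 P hP a ha
    haveI : (zpowers a).Normal := H3.normal_of_le_center ((zpowers_le).2 hz)
    exact H3.le_pCore ((b.two P hP).to_le ((zpowers_le).2 ha)) (mem_zpowers a)
  have hf := QuotientGroup.mk'_surjective (center X)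
  have t' := quo t b (QuotientGroup.mk' (center X)) hf fun P _ => by
    rw [QuotientGroup.ker_mk']; exact center_le_normalizer _
  refine lst_of_out (hM _ ⟨t', hne.image _, ?_, quo_gen _ hf hg, ?_⟩)
  · rintro _ ⟨P, hP, rfl⟩
    rw [H3.card_map_mk']
    have h1 := H3.card_inf_mul_relIndex (center X) P
    have h3 : center X ⊓ P = ⊥ := by
      rw [eq_bot_iff]; intro a ha; exact mem_bot.2 (pz P hP a ha.2 ha.1)
    rw [h3, card_bot, one_mul] at h1
    rw [h1]; exact hs P hP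
  · intro N hN hc
    set M := N.comap (QuotientGroup.mk' (center X)) with hMd
    have h1 : ⁅M, M⁆ ≤ center X := by
      rw [commutator_le]
      intro x hx y hy
      rw [← QuotientGroup.eq_one_iff, ← QuotientGroup.mk'_apply, map_commutatorElement,
        commutatorElement_eq_one_iff_mul_comm]
      exact hc _ hx _ hy
    have h3 : ⁅⁅M, M⁆, M⁆ = ⊥ := by
      rw [commutator_eq_bot_iff_le_centralizer]
      exact h1.trans (center_le_centralizer _)
    have h4 : M ≤ center X :=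
      ((H3.le_fitting (H3.isNilpotent_of_commutator_commutator_eq_bot h3)).trans
        (H3.fitting_le_pCore_sup_pPrimeCore (p := 2))).trans (sup_le c2 co)
    rw [eq_bot_iff]
    intro y hy
    obtain ⟨y, rfl⟩ := hf y
    exact mem_bot.2 ((QuotientGroup.eq_one_iff _).2 (h4 hy))

theorem stage2 (hM : MainStmt.{u}) (t : TI Ω) (b : BA Ω) (hne : Ω.Nonempty) (hg : sSup Ω = ⊤)
    (h2 : ∀ P ∈ Ω, ∀ a ∈ P, a ∈ pCore 2 X → a = 1) : Con X := by
  by_cases hs : ∀ P ∈ Ω, 4 ≤ Nat.card P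
  · exact Or.inr ⟨center X, le_rfl, fun _ => big hM t b hne hg h2 hs⟩
  · push Not at hs
    obtain ⟨P, hP, h4⟩ := hs
    refine Or.inl (small t b hg fun Q hQ => ?_)
    obtain ⟨g, rfl⟩ := t.trans P hP Q hQ
    rwa [H83.card_cj]

theorem stage1 (hM : MainStmt.{u}) (hB : BAStmt.{u}) (t : TI Ω) (hne : Ω.Nonempty)
    (hg : sSup Ω = ⊤) :
    ∃ N : Subgroup X, N.Normal ∧ IsElementaryAbelian 2 N ∧ ∀ _ : N.Normal, Con (X ⧸ N) := by
  have b := hB Ω t
  refine ⟨n0 Ω, n0_normal t, n0_ea t b, fun hN => ?_⟩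
  have hf := QuotientGroup.mk'_surjective (n0 Ω)
  have t' := quo t b (QuotientGroup.mk' (n0 Ω)) hf fun P hP => by
    rw [QuotientGroup.ker_mk']
    exact n0_le.trans (b.core P hP _ inferInstance (H3.pCore_isPGroup 2 X))
  refine stage2 hM t' (hB _ t') (hne.image _) (quo_gen _ hf hg) ?_
  rintro _ ⟨P, hP, rfl⟩ _ ⟨a, ha, rfl⟩ hc
  have hk : IsPGroup 2 (QuotientGroup.mk' (n0 Ω)).ker := by
    rw [QuotientGroup.ker_mk']
    exact (H3.pCore_isPGroup 2 X).to_le n0_le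
  have h1 : a ∈ pCore 2 X := H3.comap_pCore_le _ hk hc
  exact (QuotientGroup.eq_one_iff _).2 (subset_closure ⟨h1, P, hP, ha⟩)

end Stage2

section Start

variable {G : Type u} [Group G]

theorem ti_G {B : Subgroup G} (hB : IsElementaryAbelian 2 B)
    (hti : ∀ g : G, cj g B = B ∨ cj g B ⊓ B = ⊥) (hwc : ∀ g : G, cj g B ≤ N[B] → cj g B = B) :
    TI (Set.range fun g : G => cj g B) where
  sq := by
    rintro _ ⟨g, rfl⟩ _ ⟨a, ha, rfl⟩
    rw [← map_mul, ← sq, hB.2 a ha, map_one]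
  conj := by
    rintro _ ⟨g, rfl⟩ k
    exact ⟨k * g, H83.cj_mul k g B⟩
  trans := by
    rintro _ ⟨g, rfl⟩ _ ⟨k, rfl⟩
    exact ⟨k * g⁻¹, by rw [H83.cj_mul, H83.cj_inv_cj]⟩
  ti := by
    rintro _ ⟨g, rfl⟩ _ ⟨k, rfl⟩ hne
    rcases hti (k⁻¹ * g) with h | h
    · exact absurd (by
        have := congrArg (cj k) h
        rwa [← H83.cj_mul, mul_inv_cancel_left] at this) hne
    · have := congrArg (cj k) h
      rwa [H83.cj_inf, ← H83.cj_mul, mul_inv_cancel_left, H83.cj_bot] at this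
  wc := by
    rintro _ ⟨g, rfl⟩ _ ⟨k, rfl⟩ hle
    have h1 : cj (k⁻¹ * g) B ≤ N[B] := by
      rw [H83.cj_mul, H83.cj_le_iff, inv_inv, H83.cj_normalizer]; exact hle
    have := congrArg (cj k) (hwc _ h1)
    rwa [← H83.cj_mul, mul_inv_cancel_left] at this

theorem cj_subgroupOf (S P : Subgroup G) (s : S) :
    cj s (P.subgroupOf S) = (cj (s : G) P).subgroupOf S := by
  ext x
  rw [H83.mem_cj, mem_subgroupOf, mem_subgroupOf, H83.mem_cj]
  rfl

/-- Restriction to a subgroup containing all points. -/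
theorem ti_sub {Ω : Set (Subgroup G)} (t : TI Ω) (b : BA Ω) (S : Subgroup G)
    (hS : ∀ P ∈ Ω, P ≤ S) : TI ((fun P => P.subgroupOf S) '' Ω) where
  sq := by
    rintro _ ⟨P, hP, rfl⟩ a ha
    exact Subtype.ext (t.sq P hP a ha)
  conj := by
    rintro _ ⟨P, hP, rfl⟩ s
    exact ⟨_, t.conj P hP s, (cj_subgroupOf S P s).symm⟩
  trans := by
    rintro _ ⟨P, hP, rfl⟩ _ ⟨Q, hQ, rfl⟩
    obtain ⟨g, hg, rfl⟩ := b.conj_in P hP Q hQ S (hS P hP) (hS Q hQ)
    exact ⟨⟨g, hg⟩, cj_subgroupOf S P ⟨g, hg⟩⟩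
  ti := by
    rintro _ ⟨P, hP, rfl⟩ _ ⟨Q, hQ, rfl⟩ hne
    have h := t.ti P hP Q hQ fun e => hne (by rw [e])
    rw [eq_bot_iff]
    intro a ha
    have h1 : (a : G) ∈ P ⊓ Q := ⟨ha.1, ha.2⟩
    rw [h, mem_bot] at h1
    exact mem_bot.2 (Subtype.ext h1)
  wc := by
    rintro _ ⟨P, hP, rfl⟩ _ ⟨Q, hQ, rfl⟩ hle
    have : P ≤ N[Q] := by
      rw [le_normalizer_iff]
      intro x hx y hy
      exact H83.conj_mem hle (g := ⟨x, hS P hP hx⟩) (x := ⟨y, hS Q hQ hy⟩) hx hy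
    simp only [t.wc P hP Q hQ this]

theorem sub_gen {Ω : Set (Subgroup G)} (S : Subgroup G) (hS : sSup Ω = S) :
    sSup ((fun P => P.subgroupOf S) '' Ω) = ⊤ := by
  rw [eq_top_iff, ← map_le_map_iff_of_injective S.subtype_injective, ← MonoidHom.range_eq_map,
    range_subtype]
  refine hS.ge.trans (sSup_le fun P hP x hx => ?_)
  have hxS : x ∈ S := hS.le ((le_sSup hP : P ≤ sSup Ω) hx)
  exact ⟨⟨x, hxS⟩, (le_sSup (⟨P, hP, rfl⟩ : P.subgroupOf S ∈ (fun P => P.subgroupOf S) '' Ω) :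
    P.subgroupOf S ≤ _) hx, rfl⟩

theorem sSup_range (B : Subgroup G) :
    sSup (Set.range fun g : G => cj g B) = normalClosure (B : Set G) := by
  apply le_antisymm
  · rw [sSup_le_iff]
    rintro _ ⟨g, rfl⟩ _ ⟨a, ha, rfl⟩
    exact (normalClosure_normal).conj_mem a (subset_normalClosure ha) g
  · rw [normalClosure, closure_le]
    intro x hx
    obtain ⟨a, ha, hc⟩ := Group.mem_conjugatesOfSet_iff.1 hx
    obtain ⟨g, rfl⟩ := isConj_iff.1 hc
    exact (le_sSup (⟨g, rfl⟩ : cj g B ∈ Set.range fun g : G => cj g B) : cj g B ≤ _)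
      (H83.conj_mem_cj ha)

end Start

/-- S1764 from the main theorem. -/
theorem s1764_of (hM : MainStmt.{u}) (hBA : BAStmt.{u}) {G : Type u} [Group G] [Finite G]
    (B : Subgroup G)
    (hB : Cfsg.IsElementaryAbelian 2 B)
    (hti : ∀ g : G, B.map (MulAut.conj g).toMonoidHom = B ∨ B.map (MulAut.conj g).toMonoidHom ⊓ B = ⊥)
    (hwc : ∀ g : G, B.map (MulAut.conj g).toMonoidHom ≤ Subgroup.normalizer (B : Set G) → B.map (MulAut.conj g).toMonoidHom = B) :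
    ∃ N : Subgroup ↥(Subgroup.normalClosure (B : Set G)), N.Normal ∧ Cfsg.IsElementaryAbelian 2 N ∧
      ∀ hN : N.Normal,
        IsMulCommutative ((↥(Subgroup.normalClosure (B : Set G)) ⧸ N) ⧸ Cfsg.oddCore (↥(Subgroup.normalClosure (B : Set G)) ⧸ N)) ∨
        ∃ Z : Subgroup (↥(Subgroup.normalClosure (B : Set G)) ⧸ N), Z ≤ Subgroup.center _ ∧ ∀ hZ : Z.Normal,
          (∃ (F : Type) (_ : Field F) (_ : Fintype F) (n : ℕ), ringChar F = 2 ∧ 2 ≤ n ∧
              Nonempty ((↥(Subgroup.normalClosure (B : Set G)) ⧸ N) ⧸ Z ≃* Matrix.ProjectiveSpecialLinearGroup (Fin n) F)) ∨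
          Cfsg.Lie.IsoSuzuki ((↥(Subgroup.normalClosure (B : Set G)) ⧸ N) ⧸ Z) ∨
          (∃ (F : Type) (_ : Field F) (_ : Fintype F) (m : ℕ), Fintype.card F = 4 ^ m ∧
              Nonempty ((↥(Subgroup.normalClosure (B : Set G)) ⧸ N) ⧸ Z ≃* Cfsg.PSU 3 F (2 ^ m))) ∨
          (∃ k : ℕ, 6 ≤ k ∧ k ≤ 9 ∧ Nonempty ((↥(Subgroup.normalClosure (B : Set G)) ⧸ N) ⧸ Z ≃* ↥(alternatingGroup (Fin k)))) ∨
          Cfsg.Spor.IsoM22 ((↥(Subgroup.normalClosure (B : Set G)) ⧸ N) ⧸ Z) ∨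
          Cfsg.Spor.IsoM23 ((↥(Subgroup.normalClosure (B : Set G)) ⧸ N) ⧸ Z) ∨
          Cfsg.Spor.IsoM24 ((↥(Subgroup.normalClosure (B : Set G)) ⧸ N) ⧸ Z) := by
  have t := ti_G hB hti hwc
  have hS := sSup_range B
  exact stage1 hM hBA (ti_sub t (hBA _ t) _ fun P hP => (le_sSup hP).trans hS.le)
    ((Set.range_nonempty _).image _) (sub_gen _ hS)

end Cfsg.Agent.H23.TiR
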