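import Mathlib
import Cfsg.Agent.H23.TiR
import Cfsg.Agent.H39.SzOvoid
import Cfsg.Agent.H39.SzBasic
import Cfsg.Agent.H74.Mathieu
import Cfsg.Agent.H42.M24
import Cfsg.Prelude.Def_Exceptional
import Cfsg.Prelude.Def_Sporadic

/-!
Project TI, piece R1179: the reduction of S1179 to the main theorem.
-/

set_option autoImplicit false
set_option linter.dupNamespace false

namespace Cfsg.Agent.H23.TiR

open Cfsg Subgroup Cfsg.Agent.H6.TI
open Cfsg.Agent.H83 (cj)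
open scoped Cfsg.Agent.H63 commutatorElement

universe u

local instance factTwoTiR1 : Fact (Nat.Prime 2) := ⟨Nat.prime_two⟩

theorem suz_of_iso {G : Type*} [Group G] [IsSimpleGroup G] (h : Lie.IsoSuzuki G) :
    IsSuzuki G := by
  obtain ⟨F, _, _, m, hm, hF, ⟨e⟩⟩ := h
  refine ⟨inferInstance, m, hm, ?_⟩
  rw [((H39.lieModel hF).comap e).card_eq, Nat.card_eq_fintype_card, hF]
  ring

section

variable {G : Type u} [Group G] [Finite G] {A : Subgroup G}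

omit [Finite G] in
theorem ea_comm (hA : IsElementaryAbelian 2 A) : ∀ a ∈ A, ∀ b ∈ A, a * b = b * a :=
  fun a ha b hb => congrArg Subtype.val (hA.1.is_comm.comm (⟨a, ha⟩ : A) ⟨b, hb⟩)

omit [Finite G] in
theorem ti_of (hA : IsElementaryAbelian 2 A)
    (hwc : ∀ a ∈ A, a ≠ 1 → ∀ g : G, cj g A ≤ C1[a] → cj g A = A) (g : G) :
    cj g A = A ∨ cj g A ⊓ A = ⊥ := by
  rw [or_iff_not_imp_right]
  intro h
  obtain ⟨⟨a, ha, ha'⟩, a1⟩ := (ne_bot_iff_exists_ne_one).1 h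
  refine hwc a ha' (fun e => a1 (Subtype.ext e)) g ?_
  obtain ⟨a, ha, rfl⟩ := ha
  rintro _ ⟨c, hc, rfl⟩
  rw [mem_centralizer_singleton_iff, ← map_mul, ← map_mul, ea_comm hA c hc a ha]

theorem wc_of (hA : IsElementaryAbelian 2 A) (hA1 : A ≠ ⊥)
    (hwc : ∀ a ∈ A, a ≠ 1 → ∀ g : G, cj g A ≤ C1[a] → cj g A = A) (g : G) (h : cj g A ≤ N[A]) :
    cj g A = A := by
  have h2 : IsPGroup 2 A := fun x => ⟨1, Subtype.ext (by simpa using hA.2 x x.2)⟩
  have h3 : IsPGroup 2 ↥(cj g A ⊔ A) := IsPGroup.to_sup_of_normal_right' (h2.map _) h2 h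
  have h4 := H3.inf_centralizer_ne_bot_of_isNilpotent (N := A) h3.isNilpotent le_sup_right
    (sup_le h le_normalizer) hA1
  obtain ⟨⟨a, ha, ha'⟩, a1⟩ := (ne_bot_iff_exists_ne_one).1 h4
  refine hwc a ha (fun e => a1 (Subtype.ext e)) g fun c hc => ?_
  exact mem_centralizer_singleton_iff.2 (mem_centralizer_iff.1 ha' c (mem_sup_left hc))

end

/-- S1179 from the main theorem. -/
theorem s1179_of (hM : MainStmt.{u}) (hBA : BAStmt.{u}) {G : Type u} [Group G] [Finite G] [IsSimpleGroup G] (hna : ¬ IsMulCommutative G) (A : Subgroup G) (hA : Cfsg.IsElementaryAbelian 2 A) (hA1 : A ≠ ⊥) (hwc : ∀ a ∈ A, a ≠ 1 → ∀ g : G, A.map (MulAut.conj g).toMonoidHom ≤ Subgroup.centralizer ({a} : Set G) → A.map (MulAut.conj g).toMonoidHom = A) : (∃ (n : ℕ) (F : Type) (_ : Field F) (_ : Fintype F), 2 ≤ n ∧ CharP F 2 ∧ Nonempty (G ≃* Matrix.ProjectiveSpecialLinearGroup (Fin n) F)) ∨ Cfsg.IsSuzuki G ∨ (∃ (F : Type) (_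 : Field F) (_ : Fintype F) (q : ℕ), Fintype.card F = q ^ 2 ∧ Even q ∧ 4 ≤ q ∧ Nonempty (G ≃* Cfsg.PSU 3 F q)) ∨ (∃ n : ℕ, 6 ≤ n ∧ n ≤ 9 ∧ Nonempty (G ≃* alternatingGroup (Fin n))) ∨ Cfsg.IsM22 G ∨ Cfsg.IsM23 G ∨ Cfsg.IsM24 G ∨ Cfsg.IsHe G := by
  have t := ti_G hA (ti_of hA hwc) (wc_of hA hA1 hwc)
  have b := hBA _ t
  have ab : ∀ N : Subgroup G, N.Normal → (∀ x ∈ N, ∀ y ∈ N, x * y = y * x) → N = ⊥ := by
    intro N hN hc
    rcases hN.eq_bot_or_eq_top with h | h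
    · exact h
    · subst h
      exact absurd ⟨⟨fun x y => hc x (mem_top x) y (mem_top y)⟩⟩ hna
  have hg : sSup (Set.range fun g : G => cj g A) = ⊤ := by
    rw [sSup_range]
    refine (normalClosure_normal.eq_bot_or_eq_top).resolve_left fun h => hA1 ?_
    exact eq_bot_iff.2 (h ▸ le_normalClosure)
  have four : ∀ P ∈ Set.range fun g : G => cj g A, 4 ≤ Nat.card P := by
    by_contra hs
    push Not at hs
    obtain ⟨P, hP, h4⟩ := hs
    have h5 := small t b hg fun Q hQ => by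
      obtain ⟨g, rfl⟩ := t.trans P hP Q hQ
      rwa [H83.card_cj]
    rcases (inferInstance : (oddCore G).Normal).eq_bot_or_eq_top with h | h
    · refine hna ⟨⟨fun x y => ?_⟩⟩
      have h6 := h5.is_comm.comm (QuotientGroup.mk x : G ⧸ oddCore G) (QuotientGroup.mk y)
      rw [← QuotientGroup.mk_mul, ← QuotientGroup.mk_mul, QuotientGroup.eq, h, mem_bot,
        inv_mul_eq_one] at h6
      exact h6
    · obtain ⟨⟨a, ha⟩, a1⟩ := (ne_bot_iff_exists_ne_one).1 hA1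
      exact H6.not_mem_of_odd (H3.pPrimeCore_coprime 2 G)
        (orderOf_eq_prime (hA.2 a ha) fun e => a1 (Subtype.ext e))
        (show a ∈ oddCore G from h ▸ mem_top a)
  have h := hM _ ⟨t, Set.range_nonempty _, four, hg, ab⟩
  rcases h.2 with ⟨-, h | h | h⟩ | h | h | ⟨h, -⟩ | h | h | h | h
  · obtain ⟨F, i1, i2, hc, -, e⟩ := h
    exact Or.inl ⟨2, F, i1, i2, le_rfl, hc, e⟩
  · exact Or.inr (Or.inl (suz_of_iso h))
  · obtain ⟨F, i1, i2, q, hc, hq, h4, e⟩ := h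
    obtain ⟨n, -, hn⟩ := FiniteField.card F 2
    refine Or.inr (Or.inr (Or.inl ⟨F, i1, i2, q, hq, ?_, h4, e⟩))
    have : Even (q ^ 2) := by
      rw [← hq, hn]
      exact (Nat.even_pow.2 ⟨even_two, n.ne_zero⟩)
    exact (Nat.even_pow.1 this).1
  · obtain ⟨F, i1, i2, n, hc, hn, e⟩ := h
    exact Or.inl ⟨n, F, i1, i2, by omega, hc, e⟩
  · exact Or.inr (Or.inr (Or.inr (Or.inl ⟨6, by omega, by omega, h⟩)))
  · exact Or.inr (Or.inr (Or.inr (Or.inl ⟨7, by omega, by omega, h⟩)))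
  · exact Or.inr (Or.inr (Or.inr (Or.inl ⟨9, by omega, by omega, h⟩)))
  · obtain ⟨e⟩ := h
    exact Or.inr (Or.inr (Or.inr (Or.inr (Or.inl
      ⟨inferInstance, (Nat.card_congr e.toEquiv).trans H74.card_M22⟩))))
  · obtain ⟨e⟩ := h
    exact Or.inr (Or.inr (Or.inr (Or.inr (Or.inr (Or.inl
      ⟨inferInstance, (Nat.card_congr e.toEquiv).trans H74.card_M23⟩)))))
  · obtain ⟨e⟩ := h
    exact Or.inr (Or.inr (Or.inr (Or.inr (Or.inr (Or.inr (Or.inl
      ⟨inferInstance, (Nat.card_congr e.toEquiv).trans H42.card_M24⟩))))))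

end Cfsg.Agent.H23.TiR
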