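import Cfsg.Agent.H25.UGDefs

/-!
# Chevalley-Warning for skew-Hermitian two by two matrices
-/

set_option autoImplicit false

namespace Cfsg.Agent.H23.UgCw

open Module MvPolynomial Cfsg.Agent.H25.UG

universe u

theorem cw_bil (p : ℕ) [Fact p.Prime] {D R : Type*} [AddCommGroup D] [Module (ZMod p) D]
    [Module.Finite (ZMod p) D] [AddCommGroup R] [Module (ZMod p) R] [Module.Finite (ZMod p) R]
    (B : D →ₗ[ZMod p] D →ₗ[ZMod p] R) (h : 2 * finrank (ZMod p) R < finrank (ZMod p) D) :
    ∃ d : D, d ≠ 0 ∧ B d d = 0 := by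
  classical
  let b := Module.finBasis (ZMod p) D
  let c := Module.finBasis (ZMod p) R
  let f : Fin (finrank (ZMod p) R) → MvPolynomial (Fin (finrank (ZMod p) D)) (ZMod p) :=
    fun j => ∑ i, ∑ k, C (c.repr (B (b i) (b k)) j) * (X i * X k)
  have hdeg : ∀ j, (f j).totalDegree ≤ 2 := fun j => by
    refine totalDegree_finsetSum_le fun i _ => totalDegree_finsetSum_le fun k _ => ?_
    refine (totalDegree_mul _ _).trans ?_
    rw [totalDegree_C, zero_add]
    refine (totalDegree_mul _ _).trans ?_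
    rw [totalDegree_X, totalDegree_X]
  have hev : ∀ (x : Fin (finrank (ZMod p) D) → ZMod p) j,
      eval x (f j) = c.repr (B (∑ i, x i • b i) (∑ i, x i • b i)) j := fun x j => by
    simp only [f, map_sum, map_mul, eval_C, eval_X, map_smul, LinearMap.sum_apply,
      LinearMap.smul_apply, Finsupp.finsetSum_apply, Finsupp.smul_apply, smul_eq_mul,
      Finset.mul_sum]
    rw [Finset.sum_comm]
    refine Finset.sum_congr rfl fun i _ => Finset.sum_congr rfl fun k _ => by ring
  have hs : ∑ j, (f j).totalDegree < Fintype.card (Fin (finrank (ZMod p) D)) := by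
    refine lt_of_le_of_lt (Finset.sum_le_sum fun j _ => hdeg j) ?_
    simpa [mul_comm] using h
  have hd := char_dvd_card_solutions_of_fintype_sum_lt p hs
  by_contra hn
  push Not at hn
  have h1 : Nat.card {x : Fin (finrank (ZMod p) D) → ZMod p // ∀ j, eval x (f j) = 0} = 1 := by
    rw [Nat.card_eq_one_iff_exists]
    refine ⟨⟨0, fun j => by rw [hev]; simp⟩, fun x => Subtype.ext ?_⟩
    have h2 : ∑ i, x.1 i • b i = 0 := by
      by_contra h3
      refine hn _ h3 (c.repr.injective (Finsupp.ext fun j => ?_))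
      rw [← hev, x.2 j, map_zero, Finsupp.zero_apply]
    exact funext (Fintype.linearIndependent_iff.1 b.linearIndependent _ h2)
  rw [Fintype.card_eq_nat_card, h1] at hd
  exact (Fact.out : p.Prime).one_lt.ne' (Nat.dvd_one.1 hd)

theorem cw : CwStmt.{u} := by
  intro E _ _ σ q hq hσ D hD hc
  classical
  obtain ⟨p, hp⟩ := CharP.exists E
  haveI : Fact p.Prime := ⟨CharP.char_is_prime E p⟩
  letI : Algebra (ZMod p) E := ZMod.algebra E p
  have hq2 : 1 < q := by
    have := Fintype.one_lt_card (α := E)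
    rw [hq] at this
    by_contra h
    interval_cases q <;> simp at this
  have hσσ : ∀ x, σ (σ x) = x := fun x => by
    rw [hσ, hσ, ← pow_mul, ← sq, ← hq, FiniteField.pow_card]
  let D' : Submodule (ZMod p) (E × E × E) := AddSubgroup.toZModSubmodule p D
  let σ' : E →ₗ[ZMod p] E := σ.toAddMonoidHom.toZModLinearMap p
  let R : Submodule (ZMod p) E := LinearMap.ker (σ' - LinearMap.id)
  have hR : ∀ x, x ∈ R ↔ σ x = x := fun x => by
    simp [R, σ', sub_eq_zero]
  have hcR : Nat.card R ≤ q := by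
    have h1 : (Polynomial.X ^ q - Polynomial.X : Polynomial E) ≠ 0 :=
      FiniteField.X_pow_card_sub_X_ne_zero E hq2
    have h2 : (R : Set E) ⊆ ((Polynomial.X ^ q - Polynomial.X : Polynomial E).roots.toFinset : Set E) := by
      intro x hx
      have := (hR x).1 hx
      rw [hσ] at this
      simp [h1, this]
    calc Nat.card R = (R : Set E).ncard := rfl
      _ ≤ _ := Set.ncard_le_ncard h2 (Finset.finite_toSet _)
      _ ≤ _ := by
        rw [Set.ncard_coe_finset]
        refine (Multiset.toFinset_card_le _).trans ((Polynomial.card_roots' _).trans ?_)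
        rw [FiniteField.X_pow_card_sub_X_natDegree_eq E hq2]
  obtain ⟨π, hπ⟩ := R.subtype.exists_leftInverse_of_injective R.ker_subtype
  let B0 : (E × E × E) →ₗ[ZMod p] (E × E × E) →ₗ[ZMod p] E :=
    LinearMap.mk₂ (ZMod p) (fun d e => d.1 * e.2.2 + d.2.1 * σ' e.2.1)
      (fun _ _ _ => by simp only [Prod.fst_add, Prod.snd_add]; ring)
      (fun _ _ _ => by simp only [Prod.smul_fst, Prod.smul_snd, smul_add, smul_mul_assoc])
      (fun _ _ _ => by simp only [Prod.fst_add, Prod.snd_add, map_add]; ring)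
      (fun _ _ _ => by
        simp only [Prod.smul_fst, Prod.smul_snd, smul_add, map_smul, mul_smul_comm])
  have hlt : 2 * finrank (ZMod p) R < finrank (ZMod p) D' := by
    have h1 : Nat.card R = p ^ finrank (ZMod p) R := by
      rw [Module.natCard_eq_pow_finrank (K := ZMod p), Nat.card_zmod]
    have h2 : Nat.card D = p ^ finrank (ZMod p) D' := by
      rw [show Nat.card D = Nat.card D' from rfl, Module.natCard_eq_pow_finrank (K := ZMod p),
        Nat.card_zmod]
    refine (Nat.pow_lt_pow_iff_right (Fact.out : p.Prime).one_lt).1 ?_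
    rw [← h2, mul_comm, pow_mul, ← h1]
    exact lt_of_le_of_lt (Nat.pow_le_pow_left hcR 2) hc
  obtain ⟨d, hd0, hd⟩ := cw_bil p ((B0.compl₁₂ D'.subtype D'.subtype).compr₂ π) hlt
  refine ⟨d.1, d.2, fun h => hd0 (Subtype.ext h), ?_⟩
  obtain ⟨h1, h2⟩ := hD d.1 d.2
  have hm : d.1.1 * d.1.2.2 + d.1.2.1 * σ d.1.2.1 ∈ R := by
    rw [hR, map_add, map_mul, map_mul, hσσ, eq_neg_of_add_eq_zero_right h1,
      eq_neg_of_add_eq_zero_right h2]
    ring
  have h3 := LinearMap.congr_fun hπ ⟨_, hm⟩
  have h4 : π (d.1.1 * d.1.2.2 + d.1.2.1 * σ d.1.2.1) = 0 := hd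
  exact congrArg Subtype.val (h3.symm.trans h4)

end Cfsg.Agent.H23.UgCw
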