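import Cfsg.Agent.H74.UVDefs
import Cfsg.Agent.H35.UgGl1

/-! UV-GL1: the module structure of an element of prime order dividing `q⁴ + q³ + q² + q + 1`. -/

set_option autoImplicit false

namespace Cfsg.Agent.H23.UvGl1

open Cfsg Module Polynomial Cfsg.Agent.H31 Cfsg.Agent.H74.UV
open Cfsg.Agent.H53.Uw (St fx mem_fx)
open Cfsg.Agent.H35.UgGl1 (cnt irr_fac)

universe u

section Num

variable {q l : ℕ}

theorem q3 (hd : l ∣ q ^ 4 + q ^ 3 + q ^ 2 + q + 1) :
    (q : ZMod l) ^ 4 + q ^ 3 + q ^ 2 + q + 1 = 0 := by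
  have := (ZMod.natCast_eq_zero_iff _ l).2 hd
  push_cast at this
  exact this

theorem q3' (hd : l ∣ q ^ 4 + q ^ 3 + q ^ 2 + q + 1) : (q : ZMod l) ^ 5 = 1 := by
  have := q3 hd
  linear_combination ((q : ZMod l) - 1) * this

theorem q_ne_one (hl : l.Prime) (h3 : l ≠ 5) (hd : l ∣ q ^ 4 + q ^ 3 + q ^ 2 + q + 1) :
    (q : ZMod l) ≠ 1 := by
  intro h
  have h1 := q3 hd
  rw [h] at h1
  have : ((5 : ℕ) : ZMod l) = 0 := by push_cast; linear_combination h1
  rw [ZMod.natCast_eq_zero_iff] at this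
  exact h3 ((Nat.prime_dvd_prime_iff_eq hl Nat.prime_five).1 this)

theorem two_ne (hl : l.Prime) (hd : l ∣ q ^ 4 + q ^ 3 + q ^ 2 + q + 1) : (2 : ZMod l) ≠ 0 := by
  intro h
  have : ((2 : ℕ) : ZMod l) = 0 := by push_cast; exact h
  rw [ZMod.natCast_eq_zero_iff] at this
  have h2 : l = 2 := (Nat.prime_dvd_prime_iff_eq hl Nat.prime_two).1 this
  subst h2
  have : (q ^ 4 + q ^ 3 + q ^ 2 + q + 1) % 2 = 1 := by
    rcases Nat.mod_two_eq_zero_or_one q with h | h <;> simp [Nat.add_mod, Nat.pow_mod, h]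
  omega

theorem three_dvd (hl : l.Prime) (h3 : l ≠ 5) (hd : l ∣ q ^ 4 + q ^ 3 + q ^ 2 + q + 1) {d : ℕ}
    (h : (q ^ 2) ^ d ≡ 1 [MOD l]) : 5 ∣ d := by
  haveI := Fact.mk hl
  haveI := Fact.mk Nat.prime_five
  have h1 : ((q : ZMod l) ^ 2) ^ d = 1 := by
    have := (ZMod.natCast_eq_natCast_iff _ _ _).2 h
    push_cast at this
    exact this
  have ho : orderOf (q : ZMod l) = 5 := orderOf_eq_prime (q3' hd) (q_ne_one hl h3 hd)
  rw [← pow_mul] at h1
  have := orderOf_dvd_of_pow_eq_one h1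
  rw [ho] at this
  omega

theorem not_cI (hl : l.Prime) (h3 : l ≠ 5) (hd : l ∣ q ^ 4 + q ^ 3 + q ^ 2 + q + 1) (hq : 1 ≤ q) :
    ¬ cI q 5 + 1 ≡ 1 [MOD l] := by
  haveI := Fact.mk hl
  intro h
  have h1 := (ZMod.natCast_eq_natCast_iff _ _ _).2 h
  have h2 : cI q 5 = (q ^ 5 + 1) * (q ^ 4 - 1) := by
    unfold cI
    rw [if_neg (by decide)]
  have h4 : 1 ≤ q ^ 4 := Nat.one_le_pow _ _ hq
  rw [h2] at h1
  push_cast [Nat.cast_sub h4] at h1
  have e3 := q3' hd
  have h5 : (2 : ZMod l) * ((q : ZMod l) ^ 4 - 1) = 0 := by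
    linear_combination h1 - ((q : ZMod l) ^ 4 - 1) * e3
  rcases mul_eq_zero.1 h5 with h6 | h6
  · exact two_ne hl hd h6
  · exact q_ne_one hl h3 hd (by linear_combination e3 - (q : ZMod l) * h6)

end Num

section Lin

variable {E V : Type u} [Field E] [AddCommGroup V] [Module E V]

theorem small (f : Module.End E V) (M : Submodule E V) (hM : ∀ v ∈ M, f v ∈ M) (p : E[X])
    (hp : p ≠ 0) {n : ℕ} (h3 : p.natDegree ≤ n) {w : V} (hw : w ∈ M) (h0 : aeval f p w = 0) :
    ∃ U : Submodule E V, U ≤ M ∧ (∀ k, (f ^ k) w ∈ U) ∧ (∀ v ∈ U, f v ∈ U) ∧ finrank E U ≤ n := by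
  classical
  have hk : ∀ k : ℕ, (f ^ k) w ∈ M := fun k => by
    induction k with
    | zero => exact hw
    | succ k ih => rw [pow_succ']; exact hM _ ih
  let U : Submodule E V := Submodule.span E (Set.range fun i : Fin n => (f ^ (i : ℕ)) w)
  have hU : ∀ k, (f ^ k) w ∈ U := fun k => by
    have hm : (p * C p.leadingCoeff⁻¹).Monic := monic_mul_leadingCoeff_inv hp
    have hd : (p * C p.leadingCoeff⁻¹).natDegree = p.natDegree := natDegree_mul_leadingCoeff_inv p hp
    have hz : aeval f (p * C p.leadingCoeff⁻¹) w = 0 := by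
      rw [mul_comm, map_mul, Module.End.mul_apply, h0, map_zero]
    have e : (f ^ k) w = aeval f (X ^ k %ₘ (p * C p.leadingCoeff⁻¹)) w := by
      conv_lhs => rw [← aeval_X_pow (R := E), ← modByMonic_add_div (X ^ k) (p * C p.leadingCoeff⁻¹)]
      rw [map_add, LinearMap.add_apply, mul_comm (p * C p.leadingCoeff⁻¹), map_mul,
        Module.End.mul_apply, hz, map_zero, add_zero]
    rw [e]
    by_cases hr : X ^ k %ₘ (p * C p.leadingCoeff⁻¹) = 0
    · rw [hr, map_zero, LinearMap.zero_apply]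
      exact U.zero_mem
    have hlt : (X ^ k %ₘ (p * C p.leadingCoeff⁻¹)).natDegree < n :=
      lt_of_lt_of_le (natDegree_lt_natDegree hr (degree_modByMonic_lt _ hm)) (hd ▸ h3)
    rw [aeval_eq_sum_range' hlt, LinearMap.sum_apply]
    exact U.sum_mem fun i hi => U.smul_mem _
      (Submodule.subset_span ⟨⟨i, Finset.mem_range.1 hi⟩, rfl⟩)
  refine ⟨U, Submodule.span_le.2 ?_, hU, ?_, ?_⟩
  · rintro _ ⟨i, rfl⟩
    exact hk i
  · have : U ≤ U.comap f := Submodule.span_le.2 (by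
      rintro _ ⟨i, rfl⟩
      have := hU (i + 1)
      rwa [pow_succ'] at this)
    exact fun v hv => this hv
  · exact (finrank_range_le_card _).trans (Fintype.card_fin n).le

end Lin

theorem gl1 : Gl1Stmt.{u} := by
  intro E V _ _ _ _ _ σ B q l hS h7 hl h3 hd x hx ho
  classical
  have hB := hS.herm
  have hx' : ∀ u v, B (x u) (x v) = B u v := hx
  have hxl : x ^ l = 1 := ho ▸ pow_orderOf_eq_one x
  have hq : 1 ≤ q := by
    rcases Nat.eq_zero_or_pos q with h | h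
    · have := hS.card
      rw [h] at this
      exact absurd this Fintype.card_ne_zero
    · exact h
  have hlq : l.Coprime q := by
    rw [Nat.Prime.coprime_iff_not_dvd hl]
    intro h
    have h1 : l ∣ q ^ 4 + q ^ 3 + q ^ 2 + q := h.trans ⟨q ^ 3 + q ^ 2 + q + 1, by ring⟩
    exact hl.one_lt.ne' (Nat.dvd_one.1 ((Nat.dvd_add_right h1).1 hd))
  have hlE : (l : E) ≠ 0 := by
    intro h
    have h1 : IsCoprime (l : E) ((q ^ 2 : ℕ) : E) := Nat.Coprime.cast (hlq.pow_right 2)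
    rw [h, ← hS.card, FiniteField.cast_card_eq_zero] at h1
    exact not_isCoprime_zero_zero h1
  let f : Module.End E V := (x : V →ₗ[E] V)
  have hfk : ∀ k : ℕ, ∀ v, (f ^ k) v = (x ^ k) v := by
    intro k
    induction k with
    | zero => intro v; rfl
    | succ k ih => intro v; rw [pow_succ, pow_succ]; exact ih (x v)
  -- (A) dimensions
  have hA : ∀ W : Submodule E V, (∀ u ∈ W, x u ∈ W) → W ⊓ fx x = ⊥ → 5 ∣ finrank E W := by
    intro W hW hWf
    apply three_dvd hl h3 hd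
    have := cnt hl x hxl (W : Set V) hW W.zero_mem fun v hv hxv => by
      have : v ∈ W ⊓ fx x := ⟨hv, mem_fx.2 hxv⟩
      rwa [hWf, Submodule.mem_bot] at this
    have h2 : Nat.card (W : Set V) = (q ^ 2) ^ finrank E W := by
      rw [← hS.card, ← Nat.card_eq_fintype_card]
      exact Module.natCard_eq_pow_finrank
    rwa [h2] at this
  -- irreducibility
  have hI : ∀ W U : Submodule E V, (∀ u ∈ U, x u ∈ U) → W ⊓ fx x = ⊥ → finrank E W ≤ 5 → U ≤ W →
      U = ⊥ ∨ U = W := by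
    intro W U hU hWf hW3 hUW
    have h1 := hA U hU (eq_bot_iff.2 (hWf ▸ inf_le_inf_right _ hUW))
    have h2 := Submodule.finrank_mono hUW
    rcases Nat.eq_zero_or_pos (finrank E U) with h | h
    · exact Or.inl (Submodule.finrank_eq_zero.1 h)
    · exact Or.inr (Submodule.eq_of_le_of_finrank_le hUW (by omega))
  -- surjectivity on invariant subspaces
  have hsurj : ∀ W : Submodule E V, (∀ u ∈ W, x u ∈ W) → ∀ u ∈ W, ∃ w ∈ W, x w = u := by
    intro W hW u hu
    have hk : ∀ k : ℕ, (x ^ k) u ∈ W := by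
      intro k
      induction k with
      | zero => exact hu
      | succ k ih => rw [pow_succ']; exact hW _ ih
    refine ⟨(x ^ (l - 1)) u, hk _, ?_⟩
    have : x * x ^ (l - 1) = 1 := by
      rw [← pow_succ', Nat.sub_add_cancel hl.one_lt.le, hxl]
    rw [← LinearEquiv.mul_apply, this]
    rfl
  -- (C) totally isotropic
  have hC : ∀ W : Submodule E V, (∀ u ∈ W, x u ∈ W) → W ⊓ fx x = ⊥ → finrank E W ≤ 5 →
      TotIso B W := by
    intro W hW hWf hW3
    rcases hI W (W ⊓ perp B W) (fun u hu => ⟨hW u hu.1, mem_perp.2 fun y hy => by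
      obtain ⟨w, hw, rfl⟩ := hsurj W hW y hy
      rw [hx']
      exact mem_perp.1 hu.2 w hw⟩) hWf hW3 inf_le_left with h | h
    · have hnd : NondegOn B W := hB.toIsHermSymm.nondegOn_iff_disjoint.2 (disjoint_iff.2 h)
      rcases Nat.eq_zero_or_pos (finrank E W) with h0 | h0
      · rw [Submodule.finrank_eq_zero.1 h0]
        intro a ha b _
        rw [(Submodule.mem_bot E).1 ha]
        simp
      · exfalso
        have h1 := hA W hW hWf
        have h2 : finrank E W = 5 := by omega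
        have h4 := hB.card_isotropic_on hS.card hS.pow hnd
        rw [h2] at h4
        apply not_cI hl h3 hd hq
        rw [← h4]
        exact cnt hl x hxl {v | v ∈ W ∧ B v v = 0} (fun v hv => ⟨hW v hv.1, by rw [hx']; exact hv.2⟩)
          ⟨W.zero_mem, by simp⟩ fun v hv hxv => by
            have : v ∈ W ⊓ fx x := ⟨hv.1, mem_fx.2 hxv⟩
            rwa [hWf, Submodule.mem_bot] at this
    · exact totIso_iff_le_perp.2 (inf_eq_left.1 h)
  -- the commutator space
  let M : Submodule E V := LinearMap.range ((x : V →ₗ[E] V) - LinearMap.id)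
  have memM : ∀ v, v ∈ M ↔ ∃ u, x u - u = v := fun v => Iff.rfl
  have hMx : ∀ v ∈ M, x v ∈ M := by
    intro v hv
    obtain ⟨u, rfl⟩ := (memM v).1 hv
    exact (memM _).2 ⟨x u, by rw [map_sub]⟩
  have hMf : M ⊓ fx x = ⊥ := by
    rw [eq_bot_iff]
    rintro v ⟨hv, hv'⟩
    obtain ⟨u, hu⟩ := (memM v).1 hv
    have hv2 : x v = v := mem_fx.1 hv'
    have hk : ∀ k : ℕ, (x ^ k) u = u + (k : E) • v := by
      intro k
      induction k with
      | zero => simp
      | succ k ih =>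
        rw [pow_succ', LinearEquiv.mul_apply, ih, map_add, map_smul, hv2, Nat.cast_succ, add_smul,
          one_smul, ← hu]
        abel
    have := hk l
    rw [hxl] at this
    have h1 : (l : E) • v = 0 := by simpa using this
    exact (Submodule.mem_bot E).2 ((smul_eq_zero.1 h1).resolve_left hlE)
  have hMr : finrank E M + finrank E (fx x) = 11 := by
    rw [← h7]
    exact LinearMap.finrank_range_add_finrank_ker _
  have hMp : ∀ w ∈ fx x, ∀ u ∈ M, B w u = 0 := by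
    intro w hw u hu
    obtain ⟨a, rfl⟩ := (memM u).1 hu
    have := hx' w a
    rw [mem_fx.1 hw] at this
    rw [map_sub, this, sub_self]
  have hMtop : fx x ⊔ M = ⊤ := by
    apply Submodule.eq_top_of_finrank_eq
    have := Submodule.finrank_sup_add_finrank_inf_eq (fx x) M
    rw [inf_comm, hMf, finrank_bot] at this
    omega
  have hMnd : ∀ u ∈ M, (∀ v ∈ M, B v u = 0) → u = 0 := by
    intro u hu h
    apply hB.nondeg' u
    intro y
    have : y ∈ fx x ⊔ M := hMtop ▸ Submodule.mem_top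
    obtain ⟨a, ha, b, hb, rfl⟩ := Submodule.mem_sup.1 this
    rw [add_left, hMp a ha u hu, h b hb, add_zero]
  have hM0 : M ≠ ⊥ := by
    intro h
    have : x = 1 := by
      ext v
      have : x v - v ∈ M := (memM _).2 ⟨v, rfl⟩
      rw [h, Submodule.mem_bot, sub_eq_zero] at this
      exact this
    rw [this, orderOf_one] at ho
    exact hl.one_lt.ne ho
  have hM6 : finrank E M = 10 := by
    have h1 := hA M hMx hMf
    have h2 : finrank E M ≠ 0 := fun h => hM0 (Submodule.finrank_eq_zero.1 h)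
    have h4 : ¬ finrank E M ≤ 5 := by
      intro h
      have := hC M hMx hMf h
      exact hM0 (eq_bot_iff.2 fun u hu => (Submodule.mem_bot E).2
        (hMnd u hu fun v hv => this v hv u hu))
    omega
  have hle : ∀ W : Submodule E V, (∀ u ∈ W, x u ∈ W) → W ⊓ fx x = ⊥ → W ≤ M := by
    intro W hW hWf u hu
    let g : W →ₗ[E] W := ((x : V →ₗ[E] V) - LinearMap.id).restrict
      (fun v hv => W.sub_mem (hW v hv) hv)
    have hi : Function.Injective g := by
      rw [← LinearMap.ker_eq_bot, eq_bot_iff]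
      intro v hv
      have h1 : x v - v = 0 := congrArg Subtype.val (LinearMap.mem_ker.1 hv)
      have : (v : V) ∈ W ⊓ fx x := ⟨v.2, mem_fx.2 (sub_eq_zero.1 h1)⟩
      rw [hWf, Submodule.mem_bot] at this
      exact (Submodule.mem_bot E).2 (Subtype.ext this)
    obtain ⟨w, hw⟩ := LinearMap.injective_iff_surjective.1 hi ⟨u, hu⟩
    exact (memM u).2 ⟨w, congrArg Subtype.val hw⟩
  -- the first summand
  obtain ⟨v, hvM, hv0⟩ := Submodule.exists_mem_ne_zero_of_ne_bot hM0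
  have hQ : 1 < Nat.card E ^ 5 := Nat.one_lt_pow (by decide) Finite.one_lt_card
  have hg0 : (X ^ Nat.card E ^ 5 - X : E[X]) ≠ 0 := FiniteField.X_pow_card_sub_X_ne_zero E hQ
  have hxQ : x ^ Nat.card E ^ 5 = x := by
    have h1 : Nat.card E ^ 5 ≡ 1 [MOD orderOf x] := by
      rw [ho, Nat.card_eq_fintype_card, hS.card, ← ZMod.natCast_eq_natCast_iff]
      push_cast
      rw [← pow_mul, mul_comm, pow_mul, q3' hd, one_pow]
    rw [pow_eq_pow_iff_modEq.2 h1, pow_one]
  obtain ⟨p, hp, hpg, w, hwM, hw0, hpw⟩ := irr_fac f M hMx _ hg0 v hvM hv0 (by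
    rw [map_sub, map_pow, aeval_X, LinearMap.sub_apply, hfk, hxQ]
    exact sub_self _)
  obtain ⟨U₁, h1M, hwU, h1x, h13⟩ := small f M hMx p hp.ne_zero
    (Nat.le_of_dvd (by decide) (hp.natDegree_dvd_of_dvd_X_pow_card_pow_sub_X hpg)) hwM hpw
  replace hwU : w ∈ U₁ := hwU 0
  have h1f : U₁ ⊓ fx x = ⊥ := eq_bot_iff.2 (hMf ▸ inf_le_inf_right _ h1M)
  have h1r : finrank E U₁ = 5 := by
    have h1 := hA U₁ h1x h1f
    have h2 : finrank E U₁ ≠ 0 := fun h => hw0 (by
      rw [Submodule.finrank_eq_zero.1 h] at hwU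
      exact (Submodule.mem_bot E).1 hwU)
    omega
  -- the second summand
  have hss : f.IsSemisimple := by
    apply Module.End.isSemisimple_of_squarefree_aeval_eq_zero
      (X_pow_sub_one_separable_iff.2 hlE).squarefree
    ext y
    rw [map_sub, map_pow, aeval_X, map_one, LinearMap.sub_apply, hfk, hxl]
    exact sub_self _
  obtain ⟨U₂, h2x, hc⟩ := Module.End.isSemisimple_iff.1 hss (fx x ⊔ U₁) (by
    intro y hy
    obtain ⟨a, ha, b, hb, rfl⟩ := Submodule.mem_sup.1 hy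
    have : f (a + b) = a + x b := by
      rw [map_add]
      exact congrArg (· + x b) (mem_fx.1 ha)
    rw [Submodule.mem_comap, this]
    exact Submodule.add_mem_sup ha (h1x b hb))
  have h2x' : ∀ u ∈ U₂, x u ∈ U₂ := fun u hu => h2x hu
  have h2f : U₂ ⊓ fx x = ⊥ := by
    rw [eq_bot_iff, ← hc.inf_eq_bot, inf_comm]
    exact inf_le_inf_right _ le_sup_left
  have h12 : U₁ ⊓ U₂ = ⊥ := by
    rw [eq_bot_iff, ← hc.inf_eq_bot]
    exact inf_le_inf_right _ le_sup_right
  have h2r : finrank E U₂ = 5 := by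
    have e1 := Submodule.finrank_add_eq_of_isCompl hc
    have e2 := Submodule.finrank_sup_add_finrank_inf_eq (fx x) U₁
    rw [inf_comm, h1f, finrank_bot] at e2
    omega
  have h2M := hle U₂ h2x' h2f
  have t1 := hC U₁ h1x h1f h1r.le
  have t2 := hC U₂ h2x' h2f h2r.le
  have supM : ∀ A C : Submodule E V, A ≤ M → C ≤ M → A ⊓ C = ⊥ → finrank E A = 5 →
      finrank E C = 5 → A ⊔ C = M := by
    intro A C hA' hC' h a c
    have e2 := Submodule.finrank_sup_add_finrank_inf_eq A C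
    rw [h, finrank_bot] at e2
    exact Submodule.eq_of_le_of_finrank_le (sup_le hA' hC') (by omega)
  refine ⟨U₁, U₂, by omega, h1r, h2r, t1, t2, hc.sup_eq_top,
    fun w hw u hu => hMp w hw u (sup_le h1M h2M hu), h1x, h2x', ?_⟩
  intro W hW hWf hW0 hW3
  by_contra hne
  push Not at hne
  have hWr : finrank E W = 5 := by
    have h1 := hA W hW hWf
    have h2 : finrank E W ≠ 0 := fun h => hW0 (Submodule.finrank_eq_zero.1 h)
    omega
  have hWM := hle W hW hWf
  have dis : ∀ U : Submodule E V, (∀ u ∈ U, x u ∈ U) → finrank E U = 5 → W ≠ U → W ⊓ U = ⊥ := by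
    intro U hU hr hn
    rcases hI W (W ⊓ U) (fun u hu => ⟨hW u hu.1, hU u hu.2⟩) hWf hW3 inf_le_left with h | h
    · exact h
    · exact absurd (Submodule.eq_of_le_of_finrank_le (inf_eq_left.1 h) (by omega)) hn
  have d1 := dis U₁ h1x h1r hne.1
  have d2 := dis U₂ h2x' h2r hne.2
  have s1 := supM W U₁ hWM h1M d1 hWr h1r
  have s2 := supM W U₂ hWM h2M d2 hWr h2r
  have key : ∀ c : E, ∀ a₁ ∈ U₁, ∀ a₂ ∈ U₂, ∀ b₁ ∈ U₁, ∀ b₂ ∈ U₂, a₁ + a₂ ∈ W → b₁ + b₂ ∈ W →
      c * B a₁ b₂ + σ c * B a₂ b₁ = 0 := by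
    intro c
    let Wc : Submodule E V :=
      { carrier := {v | ∃ a₁ ∈ U₁, ∃ a₂ ∈ U₂, a₁ + a₂ ∈ W ∧ v = a₁ + c • a₂}
        add_mem' := by
          rintro _ _ ⟨a₁, h₁, a₂, h₂, ha, rfl⟩ ⟨b₁, k₁, b₂, k₂, hb, rfl⟩
          refine ⟨a₁ + b₁, U₁.add_mem h₁ k₁, a₂ + b₂, U₂.add_mem h₂ k₂, ?_, ?_⟩
          · have := W.add_mem ha hb
            rwa [add_add_add_comm] at this
          · rw [smul_add, add_add_add_comm]
        zero_mem' := ⟨0, U₁.zero_mem, 0, U₂.zero_mem, by simp, by simp⟩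
        smul_mem' := by
          rintro r _ ⟨a₁, h₁, a₂, h₂, ha, rfl⟩
          refine ⟨r • a₁, U₁.smul_mem r h₁, r • a₂, U₂.smul_mem r h₂, ?_, ?_⟩
          · rw [← smul_add]; exact W.smul_mem r ha
          · rw [smul_add, smul_comm] }
    have hcM : Wc ≤ M := by
      rintro _ ⟨a₁, h₁, a₂, h₂, -, rfl⟩
      exact M.add_mem (h1M h₁) (M.smul_mem c (h2M h₂))
    have hcx : ∀ u ∈ Wc, x u ∈ Wc := by
      rintro _ ⟨a₁, h₁, a₂, h₂, ha, rfl⟩
      refine ⟨x a₁, h1x _ h₁, x a₂, h2x' _ h₂, ?_, ?_⟩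
      · rw [← map_add]; exact hW _ ha
      · rw [map_add, map_smul]
    have hc2 : Wc ⊓ U₂ = ⊥ := by
      rw [eq_bot_iff]
      rintro _ ⟨⟨a₁, h₁, a₂, h₂, ha, rfl⟩, hv⟩
      have e1 : a₁ ∈ U₁ ⊓ U₂ := ⟨h₁, by
        have := U₂.sub_mem hv (U₂.smul_mem c h₂)
        rwa [add_sub_cancel_right] at this⟩
      rw [h12, Submodule.mem_bot] at e1
      subst e1
      rw [zero_add] at ha
      have e2 : a₂ ∈ W ⊓ U₂ := ⟨ha, h₂⟩
      rw [d2, Submodule.mem_bot] at e2
      subst e2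
      simp
    have hc3 : finrank E Wc ≤ 5 := by
      have e2 := Submodule.finrank_sup_add_finrank_inf_eq Wc U₂
      rw [hc2, finrank_bot] at e2
      have e3 := Submodule.finrank_mono (sup_le hcM h2M)
      omega
    have tc := hC Wc hcx (eq_bot_iff.2 (hMf ▸ inf_le_inf_right _ hcM)) hc3
    intro a₁ h₁ a₂ h₂ b₁ k₁ b₂ k₂ ha hb
    have := tc _ ⟨a₁, h₁, a₂, h₂, ha, rfl⟩ _ ⟨b₁, k₁, b₂, k₂, hb, rfl⟩
    rw [add_left, smul_left, map_add, map_add, smul_right, smul_right, t1 a₁ h₁ b₁ k₁,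
      t2 a₂ h₂ b₂ k₂] at this
    linear_combination this
  have orth : ∀ a ∈ U₁, ∀ b ∈ U₂, B a b = 0 := by
    intro a ha b hb
    obtain ⟨w₁, hw₁, a₂, ha₂, e1⟩ := Submodule.mem_sup.1 (s2 ▸ h1M ha : a ∈ W ⊔ U₂)
    obtain ⟨w₂, hw₂, b₁, hb₁, e2⟩ := Submodule.mem_sup.1 (s1 ▸ h2M hb : b ∈ W ⊔ U₁)
    have m1 : a + -a₂ ∈ W := by rw [← e1]; simpa using hw₁
    have m2 : -b₁ + b ∈ W := by rw [← e2]; simpa using hw₂
    obtain ⟨c, hc'⟩ := hB.inv.ne_id
    have k1 := key 1 a ha _ (U₂.neg_mem ha₂) _ (U₁.neg_mem hb₁) b hb m1 m2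
    have k2 := key c a ha _ (U₂.neg_mem ha₂) _ (U₁.neg_mem hb₁) b hb m1 m2
    rw [map_one] at k1
    have : (σ c - c) * B a b = 0 := by linear_combination σ c * k1 - k2
    exact (mul_eq_zero.1 this).resolve_left (sub_ne_zero.2 hc')
  apply hw0
  apply hMnd w hwM
  intro y hy
  rw [← supM U₁ U₂ h1M h2M h12 h1r h2r] at hy
  obtain ⟨a, ha, b, hb, rfl⟩ := Submodule.mem_sup.1 hy
  rw [add_left, t1 a ha w hwU, hB.toIsHermSymm.flip_zero (orth w hwU b hb), add_zero]

end Cfsg.Agent.H23.UvGl1
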